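import Mathlib
import Cfsg.Agent.Lib.Helper25.Glaub6
import Cfsg.Agent.Lib.Helper25.Glaub2
import Cfsg.Agent.Lib.Helper25.Glaub3
import Cfsg.Agent.Lib.Helper25.Ind

/-! Brauer--Leonard: induction from a TI situation. -/

set_option autoImplicit false
set_option linter.style.haveILetI false

namespace Cfsg.Agent.Lib.Helper1

open Cfsg Cfsg.Agent.Lib.Helper25
open scoped ComplexConjugate

universe u

variable {G : Type u} [Group G]

theorem bl_ind_apply [Fintype G] (C N V : Subgroup G) [Fintype N]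
    (hNC : ∀ x ∈ N, ∀ c ∈ C, x * c * x⁻¹ ∈ C)
    (hTI : ∀ c ∈ C, c ∉ V → ∀ x : G, x * c * x⁻¹ ∈ C → x ∈ N)
    (β : C → ℂ) (c : C) (hc : (c : G) ∉ V) :
    indFun C β c = (Nat.card C : ℂ)⁻¹ * ∑ x : N, β (conjAut C x (hNC x x.2) c) := by
  classical
  rw [indFun_apply]
  congr 1
  have h1 : ∑ x : G, extendByZero C β (x⁻¹ * c * x) = ∑ x : G, extendByZero C β (x * c * x⁻¹) := by
    apply Fintype.sum_equiv (Equiv.inv G)
    intro x
    simp
  rw [h1]
  have h2 : ∑ x : N, β (conjAut C x (hNC x x.2) c) =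
      ∑ x : N, extendByZero C β ((x : G) * c * (x : G)⁻¹) := by
    apply Finset.sum_congr rfl
    intro x _
    rw [extendByZero_mem C β (hNC x x.2 c c.2)]
    congr 1
  rw [h2]
  rw [sum_subgroup_eq N (fun x => extendByZero C β (x * c * x⁻¹))]
  apply Finset.sum_congr rfl
  intro x _
  split_ifs with hx
  · rfl
  · apply extendByZero_not_mem
    intro hmem
    exact hx (hTI c c.2 hc x hmem)

theorem bl_isometry [Fintype G] (C N V : Subgroup G) [Fintype C] [Fintype N]
    (hNC : ∀ x ∈ N, ∀ c ∈ C, x * c * x⁻¹ ∈ C)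
    (hTI : ∀ c ∈ C, c ∉ V → ∀ x : G, x * c * x⁻¹ ∈ C → x ∈ N)
    (α β : C → ℂ) (hα : ∀ c : C, (c : G) ∈ V → α c = 0) :
    classInner (indFun C α) (indFun C β) =
      (Nat.card C : ℂ)⁻¹ * ∑ x : N, classInner α (β ∘ conjAut C x (hNC x x.2)) := by
  classical
  rw [frobenius_reciprocity C α _ (indFun_isClassFunction C β)]
  unfold classInner
  rw [← Finset.mul_sum, Finset.sum_comm]
  congr 1
  rw [Finset.mul_sum]
  apply Finset.sum_congr rfl
  intro c _
  by_cases hc : (c : G) ∈ V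
  · rw [hα c hc]; simp
  · show α c * conj (indFun C β c) = _
    rw [bl_ind_apply C N V hNC hTI β c hc, map_mul, map_sum, Finset.mul_sum, Finset.mul_sum,
      Finset.mul_sum]
    apply Finset.sum_congr rfl
    intro x _
    simp only [Function.comp_apply, map_inv₀, map_natCast]
    ring

end Cfsg.Agent.Lib.Helper1
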