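import Mathlib
import Cfsg.Agent.Lib.Helper1.BLa
import Cfsg.Agent.Lib.Helper25.DetExt
import Cfsg.Agent.Lib.Helper2.CharInner

/-! Brauer--Leonard: characters of `C = P × V`, twisting and conjugation. -/

set_option autoImplicit false
set_option linter.style.haveILetI false

namespace Cfsg.Agent.Lib.Helper1

open Cfsg Cfsg.Agent.Lib.Helper25
open scoped ComplexConjugate

universe u

variable {G : Type u} [Group G]

structure BLData (C N V P : Subgroup G) (π : C →* P) : Prop where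
  hPC : P ≤ C
  hCN : C ≤ N
  hcent : ∀ u ∈ P, ∀ c ∈ C, u * c = c * u
  hNC : ∀ x ∈ N, ∀ c ∈ C, x * c * x⁻¹ ∈ C
  hNP : ∀ x ∈ N, ∀ u ∈ P, x * u * x⁻¹ ∈ P
  hNV : ∀ x ∈ N, ∀ v ∈ V, x * v * x⁻¹ ∈ V
  hTI : ∀ c ∈ C, c ∉ V → ∀ x : G, x * c * x⁻¹ ∈ C → x ∈ N
  hfree : ∀ x ∈ N, x ∉ C → ∀ u ∈ P, x * u = u * x → u = 1
  hπV : ∀ c : C, π c = 1 ↔ (c : G) ∈ V
  hπP : ∀ (u : G) (hu : u ∈ P), π ⟨u, hPC hu⟩ = ⟨u, hu⟩

variable {C N V P : Subgroup G} {π : C →* P}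

/-- conjugation by an element of `N` on `C`. -/
noncomputable def BLData.cj [Finite C] (D : BLData C N V P π) (x : N) : C ≃* C :=
  conjAut C x (D.hNC x x.2)

theorem BLData.cj_apply [Finite C] (D : BLData C N V P π) (x : N) (c : C) :
    ((D.cj x c : C) : G) = x * c * (x : G)⁻¹ := conjAut_apply C x _ c

theorem BLData.cj_mul [Finite C] (D : BLData C N V P π) (x y : N) (c : C) :
    D.cj (x * y) c = D.cj x (D.cj y c) := by
  apply Subtype.ext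
  rw [D.cj_apply, D.cj_apply, D.cj_apply]
  simp only [Subgroup.coe_mul]
  group

/-- `P` is in the kernel of `φ`. -/
def BLData.Triv (D : BLData C N V P π) (φ : C → ℂ) : Prop :=
  ∀ (u : G) (hu : u ∈ P), φ ⟨u, D.hPC hu⟩ = φ 1

/-- twisting by a linear character of `C / V = P`. -/
def blTw (π : C →* P) (μ : P →* ℂˣ) (φ : C → ℂ) : C → ℂ :=
  fun c => ((μ (π c) : ℂˣ) : ℂ) * φ c

theorem blTw_irr (μ : P →* ℂˣ) {φ : C → ℂ} (hφ : IsIrrCharacter C φ) :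
    IsIrrCharacter C (blTw π μ φ) :=
  isIrrCharacter_linear_mul (μ.comp π) hφ

theorem blTw_one (φ : C → ℂ) : blTw π 1 φ = φ := by
  ext c; simp [blTw]

theorem BLData.tw_V (D : BLData C N V P π) (μ : P →* ℂˣ) (φ : C → ℂ) (c : C)
    (hc : (c : G) ∈ V) : blTw π μ φ c = φ c := by
  unfold blTw
  rw [(D.hπV c).2 hc]; simp

theorem BLData.tw_P (D : BLData C N V P π) (μ : P →* ℂˣ) (φ : C → ℂ) (u : G) (hu : u ∈ P) :
    blTw π μ φ ⟨u, D.hPC hu⟩ = ((μ ⟨u, hu⟩ : ℂˣ) : ℂ) * φ ⟨u, D.hPC hu⟩ := by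
  unfold blTw
  rw [D.hπP u hu]

theorem BLData.central (D : BLData C N V P π) {φ : C → ℂ} (hφ : IsIrrCharacter C φ)
    (u : G) (hu : u ∈ P) :
    ∃ ω : ℂ, ω ≠ 0 ∧ ∀ c : C, φ (⟨u, D.hPC hu⟩ * c) = ω * φ c := by
  have hφ1 := Helper7.irr_apply_one_ne_zero hφ
  obtain ⟨n, ρ, hρ, rfl⟩ := hφ
  obtain ⟨ω, hω⟩ := Helper2.schur ρ (ρ ⟨u, D.hPC hu⟩) (by
    intro g
    have h : (⟨u, D.hPC hu⟩ : C) * g = g * ⟨u, D.hPC hu⟩ := Subtype.ext (D.hcent u hu g g.2)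
    show ρ _ * ρ g = ρ g * ρ _
    rw [← map_mul, ← map_mul, h])
  have e1 : ∀ c : C, ρ.character (⟨u, D.hPC hu⟩ * c) = ω * ρ.character c := by
    intro c
    simp only [Representation.character, map_mul, hω]
    rw [show (ω • (LinearMap.id : (Fin n → ℂ) →ₗ[ℂ] (Fin n → ℂ))) * ρ c = ω • ρ c from by
      ext v; simp]
    rw [map_smul, smul_eq_mul]
  refine ⟨ω, ?_, e1⟩
  intro h0
  have := e1 (⟨u, D.hPC hu⟩ : C)⁻¹
  rw [mul_inv_cancel, h0, zero_mul] at this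
  exact hφ1 this

theorem BLData.apply_P_ne_zero (D : BLData C N V P π) {φ : C → ℂ} (hφ : IsIrrCharacter C φ)
    (u : G) (hu : u ∈ P) : φ ⟨u, D.hPC hu⟩ ≠ 0 := by
  obtain ⟨ω, hω, h⟩ := D.central hφ u hu
  have := h 1
  rw [mul_one] at this
  rw [this]
  exact mul_ne_zero hω (Helper7.irr_apply_one_ne_zero hφ)

theorem BLData.tw_injective (D : BLData C N V P π) {φ : C → ℂ} (hφ : IsIrrCharacter C φ)
    {μ μ' : P →* ℂˣ} (h : blTw π μ φ = blTw π μ' φ) : μ = μ' := by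
  ext ⟨u, hu⟩
  have h1 := congrFun h ⟨u, D.hPC hu⟩
  rw [D.tw_P μ φ u hu, D.tw_P μ' φ u hu] at h1
  exact mul_right_cancel₀ (D.apply_P_ne_zero hφ u hu) h1

theorem BLData.tw_triv_unique (D : BLData C N V P π) {φ : C → ℂ} (hφ : IsIrrCharacter C φ)
    {μ μ' : P →* ℂˣ} (h : D.Triv (blTw π μ φ)) (h' : D.Triv (blTw π μ' φ)) : μ = μ' := by
  ext ⟨u, hu⟩
  have h1 := h u hu
  have h2 := h' u hu
  have e1 : blTw π μ φ 1 = φ 1 := by simp [blTw]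
  have e2 : blTw π μ' φ 1 = φ 1 := by simp [blTw]
  rw [D.tw_P μ φ u hu, e1] at h1
  rw [D.tw_P μ' φ u hu, e2, ← h1] at h2
  exact (mul_right_cancel₀ (D.apply_P_ne_zero hφ u hu) h2).symm

theorem BLData.triv_cj [Finite C] (D : BLData C N V P π) {φ : C → ℂ} (x : N)
    (h : D.Triv (φ ∘ D.cj x)) : D.Triv φ := by
  intro w hw
  have hw' : (x : G)⁻¹ * w * x ∈ P := by
    have := D.hNP (x : G)⁻¹ (N.inv_mem x.2) w hw
    rwa [inv_inv] at this
  have h1 := h _ hw'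
  simp only [Function.comp_apply, map_one] at h1
  rw [← h1]
  congr 1
  apply Subtype.ext
  rw [D.cj_apply]
  group

theorem BLData.free [Finite G] (D : BLData C N V P π) {φ : C → ℂ} (hφ : IsIrrCharacter C φ)
    (x : N) (hx : (x : G) ∉ C) (h : φ ∘ D.cj x = φ) : D.Triv φ := by
  let f : P → P := fun u => ⟨(u : G)⁻¹ * (x * u * (x : G)⁻¹),
    P.mul_mem (P.inv_mem u.2) (D.hNP x x.2 u u.2)⟩
  have hinj : Function.Injective f := by
    intro u v huv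
    have h1 : (u : G)⁻¹ * (x * u * (x : G)⁻¹) = (v : G)⁻¹ * (x * v * (x : G)⁻¹) :=
      congrArg Subtype.val huv
    have h2 : (x : G) * ((v : G) * (u : G)⁻¹) = ((v : G) * (u : G)⁻¹) * x := by
      have h3 : (v : G) * (u : G)⁻¹ =
          ((x : G) * v * (x : G)⁻¹) * ((x : G) * u * (x : G)⁻¹)⁻¹ := by
        rw [eq_mul_inv_iff_mul_eq, mul_assoc, h1]; group
      have h4 : ((x : G) * v * (x : G)⁻¹) * ((x : G) * u * (x : G)⁻¹)⁻¹ =
          x * ((v : G) * (u : G)⁻¹) * (x : G)⁻¹ := by group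
      rw [h4] at h3
      conv_rhs => rw [h3]
      group
    have h5 := D.hfree x x.2 hx _ (P.mul_mem v.2 (P.inv_mem u.2)) h2
    apply Subtype.ext
    exact (mul_inv_eq_one.1 h5).symm
  have hsurj : Function.Surjective f := Finite.surjective_of_injective hinj
  intro w hw
  obtain ⟨u, hu⟩ := hsurj ⟨w, hw⟩
  have hw' : w = (u : G)⁻¹ * (x * u * (x : G)⁻¹) := (congrArg Subtype.val hu).symm
  obtain ⟨ω, -, hω⟩ := D.central hφ (u : G)⁻¹ (P.inv_mem u.2)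
  have e1 : (⟨w, D.hPC hw⟩ : C) = ⟨(u : G)⁻¹, D.hPC (P.inv_mem u.2)⟩ * D.cj x ⟨u, D.hPC u.2⟩ := by
    apply Subtype.ext
    rw [Subgroup.coe_mul, D.cj_apply]
    exact hw'
  have e2 : (1 : C) = ⟨(u : G)⁻¹, D.hPC (P.inv_mem u.2)⟩ * ⟨u, D.hPC u.2⟩ := by
    apply Subtype.ext
    simp
  rw [e1, hω, e2, hω]
  congr 1
  exact congrFun h _

end Cfsg.Agent.Lib.Helper1
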