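import Mathlib
import Cfsg.Agent.Lib.Helper1.BLb
import Cfsg.Agent.Lib.Helper25.CliffordCorr

/-! Brauer--Leonard: Gram relations. -/

set_option autoImplicit false
set_option linter.style.haveILetI false

namespace Cfsg.Agent.Lib.Helper1

open Cfsg Cfsg.Agent.Lib.Helper25
open scoped ComplexConjugate

universe u

variable {G : Type u} [Group G] {C N V P : Subgroup G} {π : C →* P}

noncomputable def BLData.J [Fintype C] [Fintype N] (D : BLData C N V P π) (φ φ' : C → ℂ) : ℂ :=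
  (Nat.card C : ℂ)⁻¹ * ∑ x : N, classInner φ (φ' ∘ D.cj x)

def BLData.Rel [Finite C] (D : BLData C N V P π) (φ φ' : C → ℂ) : Prop :=
  ∃ x : N, φ' ∘ D.cj x = φ

theorem BLData.cj_irr [Finite C] (D : BLData C N V P π) {φ : C → ℂ} (hφ : IsIrrCharacter C φ)
    (x : N) : IsIrrCharacter C (φ ∘ D.cj x) := isIrrCharacter_comp_equiv _ hφ

open Classical in
theorem BLData.sum_mem_C [Fintype G] [Fintype C] [Fintype N] (D : BLData C N V P π) :
    ∑ x : N, (if (x : G) ∈ C then (1 : ℂ) else 0) = Nat.card C := by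
  classical
  rw [sum_subgroup_eq N (fun g => if g ∈ C then (1 : ℂ) else 0)]
  have h1 : ∑ c : C, (1 : ℂ) = ∑ g : G, if g ∈ C then (1 : ℂ) else 0 :=
    sum_subgroup_eq C (fun _ => (1 : ℂ))
  have h2 : ∑ c : C, (1 : ℂ) = Nat.card C := by
    rw [Finset.sum_const, Finset.card_univ, Nat.card_eq_fintype_card]; simp
  rw [← h2, h1]
  apply Finset.sum_congr rfl
  intro g _
  by_cases hg : g ∈ C
  · simp [hg, D.hCN hg]
  · simp [hg]

theorem BLData.J_self [Fintype G] [Fintype C] [Fintype N] (D : BLData C N V P π) {φ : C → ℂ}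
    (hφ : IsIrrCharacter C φ) (hnt : ¬ D.Triv φ) : D.J φ φ = 1 := by
  classical
  have hNC : (Nat.card C : ℂ) ≠ 0 := by exact_mod_cast Nat.card_pos.ne'
  unfold BLData.J
  have h1 : ∀ x : N, classInner φ (φ ∘ D.cj x) = if (x : G) ∈ C then (1 : ℂ) else 0 := by
    intro x
    rw [Helper7.classInner_irr hφ (D.cj_irr hφ x)]
    by_cases hx : (x : G) ∈ C
    · have : φ ∘ D.cj x = φ := by
        ext c
        have h2 : D.cj x c = ⟨x, hx⟩ * c * ⟨x, hx⟩⁻¹ := by
          apply Subtype.ext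
          rw [D.cj_apply]; rfl
        rw [Function.comp_apply, h2]
        exact Helper7.isClassFunction_of_isCharacter (Helper7.isCharacter_of_irr hφ) _ _
      simp [hx, this]
    · have : φ ≠ φ ∘ D.cj x := fun h => hnt (D.free hφ x hx h.symm)
      simp [hx, this]
  rw [Finset.sum_congr rfl (fun x _ => h1 x), D.sum_mem_C, inv_mul_cancel₀ hNC]

theorem BLData.J_rel [Fintype C] [Fintype N] (D : BLData C N V P π) {φ φ' : C → ℂ}
    (h : D.Rel φ φ') : D.J φ φ' = D.J φ φ := by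
  obtain ⟨x₀, hx₀⟩ := h
  unfold BLData.J
  congr 1
  symm
  apply Fintype.sum_equiv (Equiv.mulLeft x₀)
  intro y
  congr 1
  ext c
  simp only [Function.comp_apply, Equiv.coe_mulLeft]
  rw [D.cj_mul, ← hx₀]
  rfl

theorem BLData.J_not_rel [Fintype C] [Fintype N] (D : BLData C N V P π) {φ φ' : C → ℂ}
    (hφ : IsIrrCharacter C φ) (hφ' : IsIrrCharacter C φ') (h : ¬ D.Rel φ φ') : D.J φ φ' = 0 := by
  unfold BLData.J
  rw [Finset.sum_eq_zero, mul_zero]
  intro x _
  exact Helper7.classInner_irr_ne hφ (D.cj_irr hφ' x) (fun h' => h ⟨x, h'.symm⟩)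

open Classical in
theorem BLData.J_eval [Fintype G] [Fintype C] [Fintype N] (D : BLData C N V P π) {φ φ' : C → ℂ}
    (hφ : IsIrrCharacter C φ) (hφ' : IsIrrCharacter C φ') (hnt : ¬ D.Triv φ) :
    D.J φ φ' = if D.Rel φ φ' then 1 else 0 := by
  split_ifs with h
  · rw [D.J_rel h, D.J_self hφ hnt]
  · exact D.J_not_rel hφ hφ' h

theorem BLData.J_one_one [Fintype C] [Fintype N] (D : BLData C N V P π) {e : ℕ}
    (he : Nat.card N = e * Nat.card C) : D.J (fun _ => 1) (fun _ => 1) = e := by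
  have hNC : (Nat.card C : ℂ) ≠ 0 := by exact_mod_cast Nat.card_pos.ne'
  unfold BLData.J
  have h1 : ∀ x : N, classInner (fun _ : C => (1 : ℂ)) ((fun _ : C => (1 : ℂ)) ∘ D.cj x) = 1 := by
    intro x
    unfold classInner
    simp only [Function.comp_apply, map_one, mul_one, Finset.sum_const, Finset.card_univ,
      nsmul_eq_mul]
    rw [← Nat.card_eq_fintype_card, inv_mul_cancel₀ hNC]
  rw [Finset.sum_congr rfl (fun x _ => h1 x), Finset.sum_const, Finset.card_univ,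
    ← Nat.card_eq_fintype_card, he]
  simp only [nsmul_eq_mul, Nat.cast_mul, mul_one]
  field_simp

/-- multiplicities -/
noncomputable def blc [Fintype C] (ψ : IrrCharacter G) (φ : IrrCharacter C) : ℕ :=
  Classical.choose (Helper7.classInner_char_nat
    (Helper7.isCharacter_restrict (Helper7.isCharacter_of_irr ψ.2) C)
    (Helper7.isCharacter_of_irr φ.2))

theorem blc_spec [Fintype C] (ψ : IrrCharacter G) (φ : IrrCharacter C) :
    classInner (fun c : C => (ψ : G → ℂ) c) (φ : C → ℂ) = blc ψ φ :=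
  Classical.choose_spec (Helper7.classInner_char_nat
    (Helper7.isCharacter_restrict (Helper7.isCharacter_of_irr ψ.2) C)
    (Helper7.isCharacter_of_irr φ.2))

theorem blc_spec' [Fintype C] (ψ : IrrCharacter G) (φ : IrrCharacter C) :
    classInner (φ : C → ℂ) (fun c : C => (ψ : G → ℂ) c) = blc ψ φ := by
  rw [← Helper7.classInner_conj_symm, blc_spec]; simp

theorem BLData.gram [Fintype G] [Fintype C] [Fintype N] [Fintype (IrrCharacter G)]
    (D : BLData C N V P π) (φ₁ φ₂ φ₃ φ₄ : IrrCharacter C)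
    (h12 : ∀ c : C, (c : G) ∈ V → (φ₁ : C → ℂ) c = (φ₂ : C → ℂ) c) :
    ∑ ψ : IrrCharacter G, ((blc ψ φ₁ : ℂ) - blc ψ φ₂) * ((blc ψ φ₃ : ℂ) - blc ψ φ₄) =
      D.J φ₁ φ₃ - D.J φ₁ φ₄ - D.J φ₂ φ₃ + D.J φ₂ φ₄ := by
  have h1 := bl_isometry C N V D.hNC D.hTI ((φ₁ : C → ℂ) - (φ₂ : C → ℂ)) ((φ₃ : C → ℂ) - (φ₄ : C → ℂ))
    (fun c hc => by rw [Pi.sub_apply, h12 c hc, sub_self])
  rw [Helper7.classInner_eq_sum (indFun_isClassFunction C _)] at h1
  have h2 : ∀ (a b : IrrCharacter C) (ψ : IrrCharacter G),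
      classInner (indFun C ((a : C → ℂ) - (b : C → ℂ))) (ψ : G → ℂ) = (blc ψ a : ℂ) - blc ψ b := by
    intro a b ψ
    rw [frobenius_reciprocity C _ _
      (Helper7.isClassFunction_of_isCharacter (Helper7.isCharacter_of_irr ψ.2)),
      Helper7.classInner_sub_left, blc_spec', blc_spec']
  have h3 : ∑ ψ : IrrCharacter G, ((blc ψ φ₁ : ℂ) - blc ψ φ₂) * ((blc ψ φ₃ : ℂ) - blc ψ φ₄) =
      ∑ ψ : IrrCharacter G, classInner (indFun C ((φ₁ : C → ℂ) - (φ₂ : C → ℂ))) (ψ : G → ℂ) *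
        conj (classInner (indFun C ((φ₃ : C → ℂ) - (φ₄ : C → ℂ))) (ψ : G → ℂ)) := by
    apply Finset.sum_congr rfl
    intro ψ _
    rw [h2, h2]; simp
  rw [h3, h1]
  unfold BLData.J
  rw [← mul_sub, ← mul_sub, ← mul_add, ← Finset.sum_sub_distrib, ← Finset.sum_sub_distrib,
    ← Finset.sum_add_distrib]
  congr 1
  apply Finset.sum_congr rfl
  intro x _
  have h4 : ((φ₃ : C → ℂ) - (φ₄ : C → ℂ)) ∘ conjAut C x (D.hNC x x.2) =
      (φ₃ : C → ℂ) ∘ D.cj x - (φ₄ : C → ℂ) ∘ D.cj x := rfl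
  rw [h4, Helper7.classInner_sub_left, Helper7.classInner_sub_right, Helper7.classInner_sub_right]
  ring

/-- degree relation -/
theorem bl_deg [Fintype G] [Fintype C] [Fintype (IrrCharacter G)] (φ : IrrCharacter C) :
    ∑ ψ : IrrCharacter G, (blc ψ φ : ℂ) * (ψ : G → ℂ) 1 = (C.index : ℂ) * (φ : C → ℂ) 1 := by
  rw [← indFun_one C (φ : C → ℂ)]
  conv_rhs => rw [Helper7.classFunction_eq_sum (indFun_isClassFunction C (φ : C → ℂ))]
  rw [Finset.sum_apply]
  apply Finset.sum_congr rfl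
  intro ψ _
  rw [Pi.smul_apply, smul_eq_mul, frobenius_reciprocity C _ _
      (Helper7.isClassFunction_of_isCharacter (Helper7.isCharacter_of_irr ψ.2)), blc_spec']

theorem BLData.blc_cj [Fintype C] (D : BLData C N V P π) (ψ : IrrCharacter G)
    (φ φ' : IrrCharacter C) (h : D.Rel φ φ') : blc ψ φ = blc ψ φ' := by
  obtain ⟨x, hx⟩ := h
  have h0 : (fun c : C => (ψ : G → ℂ) c) ∘ D.cj x = (fun c : C => (ψ : G → ℂ) c) := by
    ext c
    show (ψ : G → ℂ) (D.cj x c : C) = (ψ : G → ℂ) c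
    rw [D.cj_apply]
    exact Helper7.isClassFunction_of_isCharacter (Helper7.isCharacter_of_irr ψ.2) _ _
  have h3 := classInner_comp_equiv (D.cj x) (fun c : C => (ψ : G → ℂ) c) (φ' : C → ℂ)
  rw [h0, hx, blc_spec, blc_spec] at h3
  exact_mod_cast h3

end Cfsg.Agent.Lib.Helper1
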