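import Mathlib
import Cfsg.Agent.Lib.Helper1.BLc

/-! Brauer--Leonard: counting lemmas. -/

set_option autoImplicit false
set_option linter.style.haveILetI false

namespace Cfsg.Agent.Lib.Helper1

open Cfsg Cfsg.Agent.Lib.Helper25
open scoped ComplexConjugate

universe u

variable {G : Type u} [Group G] {C N V P : Subgroup G} {π : C →* P}

theorem BLData.cj_inv_cj [Finite C] (D : BLData C N V P π) (x : N) (c : C) :
    D.cj x (D.cj x⁻¹ c) = c := by
  apply Subtype.ext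
  rw [D.cj_apply, D.cj_apply]
  simp only [Subgroup.coe_inv]
  group

theorem BLData.Rel.symm [Finite C] {D : BLData C N V P π} {φ φ' : C → ℂ} (h : D.Rel φ φ') :
    D.Rel φ' φ := by
  obtain ⟨x, hx⟩ := h
  refine ⟨x⁻¹, ?_⟩
  ext c
  rw [← hx]
  simp only [Function.comp_apply]
  rw [D.cj_inv_cj]

theorem BLData.Rel.triv [Finite C] {D : BLData C N V P π} {φ φ' : C → ℂ} (h : D.Rel φ φ')
    (ht : D.Triv φ) : D.Triv φ' := by
  obtain ⟨x, hx⟩ := h
  rw [← hx] at ht
  exact D.triv_cj x ht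

theorem BLData.triv_one (D : BLData C N V P π) : D.Triv (fun _ => 1) := fun _ _ => rfl

open Classical in
theorem BLData.rel_card [Fintype G] [Fintype C] [Fintype N] [Fintype (IrrCharacter C)]
    (D : BLData C N V P π) {e : ℕ} (he : Nat.card N = e * Nat.card C)
    (φ₁ : IrrCharacter C) (hnt : ¬ D.Triv φ₁) :
    (Finset.univ.filter (fun φ : IrrCharacter C => D.Rel φ₁ φ)).card = e := by
  have hNC : (Nat.card C : ℂ) ≠ 0 := by exact_mod_cast Nat.card_pos.ne'
  have h1 : ((Finset.univ.filter (fun φ : IrrCharacter C => D.Rel φ₁ φ)).card : ℂ) =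
      ∑ φ : IrrCharacter C, D.J φ₁ φ := by
    rw [Finset.card_filter]
    push_cast
    apply Finset.sum_congr rfl
    intro φ _
    rw [D.J_eval φ₁.2 φ.2 hnt]
  have h2 : ∀ x : N, ∑ φ : IrrCharacter C, classInner (φ₁ : C → ℂ) ((φ : C → ℂ) ∘ D.cj x) = 1 := by
    intro x
    rw [Finset.sum_eq_single (⟨(φ₁ : C → ℂ) ∘ D.cj x⁻¹, D.cj_irr φ₁.2 _⟩ : IrrCharacter C)]
    · have : ((φ₁ : C → ℂ) ∘ D.cj x⁻¹) ∘ D.cj x = (φ₁ : C → ℂ) := by
        ext c
        simp only [Function.comp_apply]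
        have := D.cj_inv_cj x⁻¹ c
        rw [inv_inv] at this
        rw [this]
      show classInner (φ₁ : C → ℂ) (((φ₁ : C → ℂ) ∘ D.cj x⁻¹) ∘ D.cj x) = 1
      rw [this]
      exact Helper7.classInner_irr_self φ₁.2
    · intro φ _ hne
      apply Helper7.classInner_irr_ne φ₁.2 (D.cj_irr φ.2 x)
      intro h
      apply hne
      apply Subtype.ext
      show (φ : C → ℂ) = (φ₁ : C → ℂ) ∘ D.cj x⁻¹
      rw [h]
      ext c
      simp only [Function.comp_apply]
      rw [D.cj_inv_cj]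
    · intro h; exact absurd (Finset.mem_univ _) h
  have h3 : ∑ φ : IrrCharacter C, D.J φ₁ φ = e := by
    unfold BLData.J
    rw [← Finset.mul_sum, Finset.sum_comm, Finset.sum_congr rfl (fun x _ => h2 x),
      Finset.sum_const, Finset.card_univ, ← Nat.card_eq_fintype_card, he]
    simp only [nsmul_eq_mul, Nat.cast_mul, mul_one]
    field_simp
  rw [h3] at h1
  exact_mod_cast h1

open Classical in
theorem BLData.tw_fiber [Fintype G] [Fintype C] [Fintype N] [Fintype (IrrCharacter C)]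
    [Fintype (P →* ℂˣ)]
    (D : BLData C N V P π) {e : ℕ} (he : Nat.card N = e * Nat.card C)
    (φ₁ : IrrCharacter C) (hnt : ¬ D.Triv φ₁) (φ' : IrrCharacter C) :
    (Finset.univ.filter (fun μ : P →* ℂˣ => D.Rel φ₁ (blTw π μ φ'))).card ≤ e := by
  rw [← D.rel_card he φ₁ hnt]
  apply Finset.card_le_card_of_injOn
    (fun μ => (⟨blTw π μ φ', blTw_irr μ φ'.2⟩ : IrrCharacter C))
  · intro μ hμ
    simp only [Finset.coe_filter, Finset.mem_univ, true_and, Set.mem_setOf_eq] at hμ ⊢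
    exact hμ
  · intro μ _ μ' _ h
    exact D.tw_injective φ'.2 (congrArg Subtype.val h)

/-- degree as a natural number -/
noncomputable def ideg {X : Type u} [Group X] [Finite X] (φ : IrrCharacter X) : ℕ :=
  Classical.choose (Helper7.irr_apply_one φ.2)

theorem ideg_pos {X : Type u} [Group X] [Finite X] (φ : IrrCharacter X) : 0 < ideg φ :=
  (Classical.choose_spec (Helper7.irr_apply_one φ.2)).1

theorem ideg_spec {X : Type u} [Group X] [Finite X] (φ : IrrCharacter X) :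
    (φ : X → ℂ) 1 = ideg φ :=
  (Classical.choose_spec (Helper7.irr_apply_one φ.2)).2

theorem blc_deg_sum [Finite G] [Fintype C] [Fintype (IrrCharacter C)] (ψ : IrrCharacter G) :
    ideg ψ = ∑ φ : IrrCharacter C, blc ψ φ * ideg φ := by
  have hcf := Helper7.isClassFunction_of_isCharacter
    (Helper7.isCharacter_restrict (Helper7.isCharacter_of_irr ψ.2) C)
  have h1 := congrFun (Helper7.classFunction_eq_sum hcf) 1
  rw [Finset.sum_apply] at h1
  simp only [Pi.smul_apply, smul_eq_mul, blc_spec, ideg_spec, Subgroup.coe_one] at h1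
  exact_mod_cast h1

theorem blc_count [Finite G] [Fintype C] [Fintype (IrrCharacter C)] (ψ : IrrCharacter G)
    (one : IrrCharacter C) (S : Finset (IrrCharacter C)) (h1 : one ∉ S)
    (hS : ∀ φ ∈ S, blc ψ φ ≠ 0) : blc ψ one + S.card ≤ ideg ψ := by
  classical
  rw [blc_deg_sum (C := C) ψ]
  have h2 : ∑ φ ∈ insert one S, blc ψ φ * ideg φ ≤ ∑ φ : IrrCharacter C, blc ψ φ * ideg φ :=
    Finset.sum_le_sum_of_subset (Finset.subset_univ _)
  refine le_trans ?_ h2
  rw [Finset.sum_insert h1]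
  apply add_le_add
  · exact Nat.le_mul_of_pos_right _ (ideg_pos one)
  · rw [Finset.card_eq_sum_ones]
    apply Finset.sum_le_sum
    intro φ hφ
    exact Nat.mul_pos (Nat.pos_of_ne_zero (hS φ hφ)) (ideg_pos φ)

/-- difference vectors -/
noncomputable def yv [Fintype C] (φ₁ φ₂ : IrrCharacter C) : IrrCharacter G → ℤ :=
  fun ψ => (blc ψ φ₁ : ℤ) - blc ψ φ₂

theorem BLData.gram_int [Fintype G] [Fintype C] [Fintype N] [Fintype (IrrCharacter G)]
    (D : BLData C N V P π) (φ₁ φ₂ φ₃ φ₄ : IrrCharacter C)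
    (h12 : ∀ c : C, (c : G) ∈ V → (φ₁ : C → ℂ) c = (φ₂ : C → ℂ) c)
    (j13 j14 j23 j24 : ℤ) (h13 : D.J φ₁ φ₃ = j13) (h14 : D.J φ₁ φ₄ = j14)
    (h23 : D.J φ₂ φ₃ = j23) (h24 : D.J φ₂ φ₄ = j24) :
    ∑ ψ : IrrCharacter G, yv φ₁ φ₂ ψ * yv φ₃ φ₄ ψ = j13 - j14 - j23 + j24 := by
  have h := D.gram φ₁ φ₂ φ₃ φ₄ h12
  rw [h13, h14, h23, h24] at h
  unfold yv
  exact_mod_cast h

theorem yv_deg [Fintype G] [Fintype C] [Fintype (IrrCharacter G)] (φ₁ φ₂ : IrrCharacter C)
    (h : (φ₁ : C → ℂ) 1 = (φ₂ : C → ℂ) 1) :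
    ∑ ψ : IrrCharacter G, yv φ₁ φ₂ ψ * (ideg ψ : ℤ) = 0 := by
  have h1 := bl_deg (G := G) φ₁
  have h2 := bl_deg (G := G) φ₂
  rw [← h, ← h1] at h2
  have h3 : ∑ ψ : IrrCharacter G, ((blc ψ φ₁ : ℂ) - blc ψ φ₂) * (ideg ψ : ℂ) = 0 := by
    simp only [sub_mul, Finset.sum_sub_distrib]
    simp only [ideg_spec] at h2
    rw [h2, sub_self]
  unfold yv
  exact_mod_cast h3

theorem BLData.J1 [Fintype G] [Fintype C] [Fintype N] (D : BLData C N V P π) {φ φ' : C → ℂ}
    (hφ : IsIrrCharacter C φ) (hφ' : IsIrrCharacter C φ') (hnt : ¬ D.Triv φ)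
    (h : D.Rel φ φ') : D.J φ φ' = ((1 : ℤ) : ℂ) := by
  classical
  rw [D.J_eval hφ hφ' hnt, if_pos h]; simp

theorem BLData.J0 [Fintype C] [Fintype N] (D : BLData C N V P π) {φ φ' : C → ℂ}
    (hφ : IsIrrCharacter C φ) (hφ' : IsIrrCharacter C φ')
    (h : ¬ D.Rel φ φ') : D.J φ φ' = ((0 : ℤ) : ℂ) := by
  rw [D.J_not_rel hφ hφ' h]; simp

theorem BLData.rel_refl [Finite C] (D : BLData C N V P π) (φ : C → ℂ) : D.Rel φ φ := by
  refine ⟨1, ?_⟩
  ext c
  simp only [Function.comp_apply]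
  congr 1
  apply Subtype.ext
  rw [D.cj_apply]; simp

end Cfsg.Agent.Lib.Helper1
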