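import Mathlib

/-! Brauer--Leonard: integer vector lemmas. -/

set_option autoImplicit false

namespace Cfsg.Agent.Lib.Helper1

universe u

variable {ι : Type u} [Fintype ι]

theorem bl_exists_neg (y deg : ι → ℤ) (hdeg : ∀ i, 0 < deg i) (h0 : ∑ i, y i * deg i = 0)
    (i₀ : ι) (hi : 0 < y i₀) : ∃ j, y j < 0 := by
  by_contra hcon
  push Not at hcon
  have h1 : y i₀ * deg i₀ ≤ ∑ i, y i * deg i :=
    Finset.single_le_sum (f := fun i => y i * deg i)
      (fun i _ => mul_nonneg (hcon i) (hdeg i).le) (Finset.mem_univ i₀)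
  have h2 : 0 < y i₀ * deg i₀ := mul_pos hi (hdeg i₀)
  omega

theorem bl_exists_pos (y deg : ι → ℤ) (hdeg : ∀ i, 0 < deg i) (h0 : ∑ i, y i * deg i = 0)
    (i₀ : ι) (hi : y i₀ < 0) : ∃ j, 0 < y j := by
  obtain ⟨j, hj⟩ := bl_exists_neg (fun i => - y i) deg hdeg (by
    simp only [neg_mul, Finset.sum_neg_distrib, h0, neg_zero]) i₀ (by simpa using hi)
  exact ⟨j, by simpa using hj⟩

theorem bl_sq2 (y : ι → ℤ) {i j : ι} (hij : i ≠ j) :
    y i * y i + y j * y j ≤ ∑ k, y k * y k := by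
  classical
  rw [← Finset.sum_pair (f := fun k => y k * y k) hij]
  exact Finset.sum_le_univ_sum_of_nonneg (fun k => mul_self_nonneg _)

theorem bl_sq3 (y : ι → ℤ) {i j k : ι} (hij : i ≠ j) (hik : i ≠ k) (hjk : j ≠ k) :
    y i * y i + y j * y j + y k * y k ≤ ∑ l, y l * y l := by
  classical
  have h1 : ∑ l ∈ ({i, j, k} : Finset ι), y l * y l = y i * y i + y j * y j + y k * y k := by
    rw [Finset.sum_insert (by simp [hij, hik]), Finset.sum_pair hjk]; ring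
  rw [← h1]
  exact Finset.sum_le_univ_sum_of_nonneg (fun k => mul_self_nonneg _)

theorem bl_two (y deg : ι → ℤ) (hdeg : ∀ i, 0 < deg i) (h0 : ∑ i, y i * deg i = 0)
    (h2 : ∑ i, y i * y i = 2) (i₀ : ι) (hi : 1 ≤ y i₀) :
    y i₀ = 1 ∧ ∃ B, B ≠ i₀ ∧ y B = -1 ∧ ∀ i, i ≠ i₀ → i ≠ B → y i = 0 := by
  obtain ⟨B, hB⟩ := bl_exists_neg y deg hdeg h0 i₀ (by omega)
  have hne : B ≠ i₀ := by rintro rfl; omega
  have h3 := bl_sq2 y hne
  rw [h2] at h3
  have h4 : y i₀ = 1 := by nlinarith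
  have h5 : y B = -1 := by nlinarith
  refine ⟨h4, B, hne, h5, ?_⟩
  intro i hi0 hiB
  have h6 := bl_sq3 y hne (Ne.symm hiB) (Ne.symm hi0)
  rw [h2, h4, h5] at h6
  have : y i * y i ≤ 0 := by linarith
  nlinarith [mul_self_nonneg (y i)]

theorem bl_two_inner (y z : ι → ℤ) {i₀ B : ι} (hne : B ≠ i₀) (h1 : y i₀ = 1) (h2 : y B = -1)
    (h3 : ∀ i, i ≠ i₀ → i ≠ B → y i = 0) : ∑ i, z i * y i = z i₀ - z B := by
  classical
  have h4 : ∑ i ∈ ({i₀, B} : Finset ι), z i * y i = ∑ i, z i * y i := by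
    apply Finset.sum_subset (Finset.subset_univ _)
    intro i _ hi
    simp only [Finset.mem_insert, Finset.mem_singleton, not_or] at hi
    rw [h3 i hi.1 hi.2, mul_zero]
  rw [← h4, Finset.sum_pair (Ne.symm hne), h1, h2]; ring

theorem bl_two_neg (y deg : ι → ℤ) (hdeg : ∀ i, 0 < deg i) (h0 : ∑ i, y i * deg i = 0)
    (h2 : ∑ i, y i * y i = 2) {B₀ B₁ : ι} (hne : B₀ ≠ B₁) (h3 : y B₀ ≤ -1) (h4 : y B₁ ≤ -1) :
    False := by
  obtain ⟨j, hj⟩ := bl_exists_pos y deg hdeg h0 B₀ (by omega)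
  have hj0 : B₀ ≠ j := by rintro rfl; omega
  have hj1 : B₁ ≠ j := by rintro rfl; omega
  have h5 := bl_sq3 y hne hj0 hj1
  rw [h2] at h5
  nlinarith

/-- lower bound for a sum of squares -/
theorem bl_sq_card (d : ι → ℤ) (S : Finset ι) (hS : ∀ i ∈ S, d i ≠ 0) :
    (S.card : ℤ) ≤ ∑ i, d i * d i := by
  have h1 : ∑ i ∈ S, d i * d i ≤ ∑ i, d i * d i :=
    Finset.sum_le_univ_sum_of_nonneg (fun k => mul_self_nonneg _)
  refine le_trans ?_ h1
  rw [Finset.card_eq_sum_ones]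
  push_cast
  apply Finset.sum_le_sum
  intro i hi
  have := hS i hi
  have h2 : 0 < d i * d i := mul_self_pos.2 this
  omega

end Cfsg.Agent.Lib.Helper1
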