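import Mathlib
import Cfsg.Agent.Lib.Helper1.BLd
import Cfsg.Agent.Lib.Helper1.BLe

/-! Brauer--Leonard: the key lemma. -/

set_option autoImplicit false
set_option linter.style.haveILetI false

namespace Cfsg.Agent.Lib.Helper1

open Cfsg Cfsg.Agent.Lib.Helper25
open scoped ComplexConjugate

universe u

variable {G : Type u} [Group G] {C N V P : Subgroup G} {π : C →* P}

theorem blc_oneG_self [Fintype C] (oneG : IrrCharacter G) (h1 : (oneG : G → ℂ) = fun _ => 1)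
    (one : IrrCharacter C) (hone : (one : C → ℂ) = fun _ => 1) : blc oneG one = 1 := by
  have h := blc_spec oneG one
  have h2 : (fun c : C => (oneG : G → ℂ) c) = (one : C → ℂ) := by rw [h1, hone]
  rw [h2, Helper7.classInner_irr_self one.2] at h
  exact_mod_cast h.symm

theorem blc_oneG_ne [Fintype C] (oneG : IrrCharacter G) (h1 : (oneG : G → ℂ) = fun _ => 1)
    (one : IrrCharacter C) (hone : (one : C → ℂ) = fun _ => 1) (φ : IrrCharacter C)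
    (hne : φ ≠ one) : blc oneG φ = 0 := by
  have h := blc_spec oneG φ
  have h2 : (fun c : C => (oneG : G → ℂ) c) = (one : C → ℂ) := by rw [h1, hone]
  rw [h2, Helper7.classInner_irr_ne one.2 φ.2 (fun h => hne (Subtype.ext h.symm))] at h
  exact_mod_cast h.symm

open Classical in
theorem BLData.lemmaK [Fintype G] [Fintype C] [Fintype N] [Fintype (IrrCharacter G)]
    [Fintype (IrrCharacter C)] [Fintype (P →* ℂˣ)]
    (D : BLData C N V P π) {e q : ℕ} (he : Nat.card N = e * Nat.card C)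
    (hq : Fintype.card (P →* ℂˣ) = q) (heq : e ^ 2 + 1 < q)
    (oneG ψ₀ : IrrCharacter G) (honeG : (oneG : G → ℂ) = fun _ => 1)
    (one φ' : IrrCharacter C) (hone : (one : C → ℂ) = fun _ => 1)
    (ha : 1 ≤ blc ψ₀ one) (hφ' : ¬ D.Triv φ') (hc : blc ψ₀ φ' ≠ 0)
    (hsmall : ideg ψ₀ + e + 2 ≤ q + blc ψ₀ one) : False := by
  obtain ⟨Φ, hΦ⟩ : ∃ Φ : (P →* ℂˣ) → IrrCharacter C, ∀ μ, (Φ μ : C → ℂ) = blTw π μ φ' :=
    ⟨fun μ => ⟨_, blTw_irr μ φ'.2⟩, fun _ => rfl⟩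
  obtain ⟨κ, hκ⟩ : ∃ κ : (P →* ℂˣ) → IrrCharacter C, ∀ μ, (κ μ : C → ℂ) = blTw π μ one :=
    ⟨fun μ => ⟨_, blTw_irr μ one.2⟩, fun _ => rfl⟩
  have hq2 : 2 ≤ q := lt_of_le_of_lt (Nat.le_add_left 1 (e ^ 2)) heq
  have hΦinj : Function.Injective Φ := fun μ μ' h => D.tw_injective φ'.2 (by
    rw [← hΦ, ← hΦ, h])
  have hκinj : Function.Injective κ := fun μ μ' h => D.tw_injective one.2 (by
    rw [← hκ, ← hκ, h])
  have hκ1 : κ 1 = one := Subtype.ext (by rw [hκ, blTw_one])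
  have hΦV : ∀ μ (c : C), (c : G) ∈ V → (φ' : C → ℂ) c = (Φ μ : C → ℂ) c := fun μ c hc => by
    rw [hΦ, D.tw_V μ _ c hc]
  have hκV : ∀ μ (c : C), (c : G) ∈ V → (one : C → ℂ) c = (κ μ : C → ℂ) c := fun μ c hc => by
    rw [hκ, D.tw_V μ _ c hc]
  have h1V : (((1 : C) : G)) ∈ V := by rw [Subgroup.coe_one]; exact V.one_mem
  have honeT : D.Triv one := by rw [hone]; exact D.triv_one
  have hκT : ∀ μ, μ ≠ 1 → ¬ D.Triv (κ μ) := by
    intro μ hμ ht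
    apply hμ
    rw [hκ] at ht
    exact D.tw_triv_unique one.2 ht (by rw [blTw_one]; exact honeT)
  set T := Finset.univ.filter (fun μ => D.Triv (Φ μ)) with hTdef
  have hT : T.card ≤ 1 := by
    apply Finset.card_le_one.2
    intro μ hμ μ' hμ'
    simp only [hTdef, Finset.mem_filter, Finset.mem_univ, true_and, hΦ] at hμ hμ'
    exact D.tw_triv_unique φ'.2 hμ hμ'
  -- omitted set
  set O := Finset.univ.filter (fun μ => ¬ D.Triv (Φ μ) ∧ blc ψ₀ (Φ μ) = 0) with hO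
  set A := Finset.univ.filter (fun μ => ¬ D.Triv (Φ μ) ∧ blc ψ₀ (Φ μ) ≠ 0) with hA
  have hcover : (Finset.univ : Finset (P →* ℂˣ)) ⊆ O ∪ A ∪ T := by
    intro μ _
    simp only [hO, hA, hTdef, Finset.mem_union, Finset.mem_filter, Finset.mem_univ, true_and]
    tauto
  have hcard1 : q ≤ O.card + A.card + T.card := by
    rw [← hq, ← Finset.card_univ]
    exact (Finset.card_le_card hcover).trans ((Finset.card_union_le _ _).trans
      (Nat.add_le_add_right (Finset.card_union_le _ _) _))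
  have hAc : blc ψ₀ one + A.card ≤ ideg ψ₀ := by
    have := blc_count ψ₀ one (A.image Φ) (by
      intro h
      obtain ⟨μ, hμ, h2⟩ := Finset.mem_image.1 h
      simp only [hA, Finset.mem_filter, Finset.mem_univ, true_and] at hμ
      apply hμ.1; rw [h2]; exact honeT) (by
      intro φ hφ
      obtain ⟨μ, hμ, rfl⟩ := Finset.mem_image.1 hφ
      simp only [hA, Finset.mem_filter, Finset.mem_univ, true_and] at hμ
      exact hμ.2)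
    rwa [Finset.card_image_of_injective _ hΦinj] at this
  have hOc : e + 1 ≤ O.card := by omega
  obtain ⟨μ₀, hμ₀⟩ : O.Nonempty := Finset.card_pos.1 (by omega)
  have hOmem : ∀ μ ∈ O, ¬ D.Triv (Φ μ) ∧ blc ψ₀ (Φ μ) = 0 := by
    intro μ hμ
    simpa only [hO, Finset.mem_filter, Finset.mem_univ, true_and] using hμ
  have hμ₀' := hOmem μ₀ hμ₀
  obtain ⟨μ₁, hμ₁, hrel01⟩ : ∃ μ₁ ∈ O, ¬ D.Rel (Φ μ₀) (Φ μ₁) := by
    by_contra hcon
    push Not at hcon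
    have : O ⊆ Finset.univ.filter (fun μ => D.Rel (Φ μ₀) (blTw π μ φ')) := by
      intro μ hμ
      simp only [Finset.mem_filter, Finset.mem_univ, true_and]
      rw [← hΦ]
      exact hcon μ hμ
    have h2 := (Finset.card_le_card this).trans (D.tw_fiber he (Φ μ₀) hμ₀'.1 φ')
    omega
  have hμ₁' := hOmem μ₁ hμ₁
  obtain ⟨lam, hlam1, hlam⟩ : ∃ lam : P →* ℂˣ, lam ≠ 1 ∧ blc ψ₀ (κ lam) = 0 := by
    by_contra hcon
    push Not at hcon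
    have := blc_count ψ₀ one ((Finset.univ.erase 1).image κ) (by
      intro h
      obtain ⟨μ, hμ, h2⟩ := Finset.mem_image.1 h
      rw [← hκ1] at h2
      exact (Finset.mem_erase.1 hμ).1 (hκinj h2)) (by
      intro φ hφ
      obtain ⟨μ, hμ, rfl⟩ := Finset.mem_image.1 hφ
      exact hcon μ (Finset.mem_erase.1 hμ).1)
    rw [Finset.card_image_of_injective _ hκinj, Finset.card_erase_of_mem (Finset.mem_univ _),
      Finset.card_univ, hq] at this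
    omega
  have hdeg : ∀ ψ : IrrCharacter G, 0 < (fun ψ : IrrCharacter G => (ideg ψ : ℤ)) ψ :=
    fun ψ => by
      show (0 : ℤ) < (ideg ψ : ℤ)
      exact_mod_cast ideg_pos ψ
  have hy0 : ∀ μ, ∑ ψ : IrrCharacter G, yv φ' (Φ μ) ψ * (ideg ψ : ℤ) = 0 :=
    fun μ => yv_deg φ' (Φ μ) (hΦV μ 1 h1V)
  have hgram : ∀ μ ν, ¬ D.Rel φ' (Φ μ) → ¬ D.Rel φ' (Φ ν) → ∀ r : ℤ, D.J (Φ μ) (Φ ν) = r →
      ∑ ψ : IrrCharacter G, yv φ' (Φ μ) ψ * yv φ' (Φ ν) ψ = 1 + r := by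
    intro μ ν hμ hν r hr
    rw [D.gram_int φ' (Φ μ) φ' (Φ ν) (hΦV μ) 1 0 0 r (D.J1 φ'.2 φ'.2 hφ' (D.rel_refl _))
      (D.J0 φ'.2 (Φ ν).2 hν) (D.J0 (Φ μ).2 φ'.2 (fun h => hμ h.symm)) hr]
    ring
  have hnr : ∀ φ'' : IrrCharacter C, blc ψ₀ φ'' = 0 → ¬ D.Rel φ' φ'' :=
    fun φ'' h0 hr => hc (by rw [D.blc_cj ψ₀ φ' φ'' hr]; exact h0)
  have hK0 : ¬ D.Rel φ' (Φ μ₀) := hnr _ hμ₀'.2
  have hK1 : ¬ D.Rel φ' (Φ μ₁) := hnr _ hμ₁'.2
  have hy2 : ∀ μ, ¬ D.Triv (Φ μ) → ¬ D.Rel φ' (Φ μ) →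
      ∑ ψ : IrrCharacter G, yv φ' (Φ μ) ψ * yv φ' (Φ μ) ψ = 2 := by
    intro μ h1 h2
    rw [hgram μ μ h2 h2 1 (D.J1 (Φ μ).2 (Φ μ).2 h1 (D.rel_refl _))]; norm_num
  have hyψ₀ : ∀ μ, yv φ' (Φ μ) ψ₀ = (blc ψ₀ φ' : ℤ) - blc ψ₀ (Φ μ) := fun μ => rfl
  have hcpos := Nat.pos_of_ne_zero hc
  obtain ⟨h01, B₀, hB₀ne, hB₀, hB₀z⟩ := bl_two (yv φ' (Φ μ₀)) _ hdeg (hy0 μ₀)
    (hy2 μ₀ hμ₀'.1 hK0) ψ₀ (by rw [hyψ₀, hμ₀'.2]; omega)
  obtain ⟨h11, B₁, hB₁ne, hB₁, hB₁z⟩ := bl_two (yv φ' (Φ μ₁)) _ hdeg (hy0 μ₁)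
    (hy2 μ₁ hμ₁'.1 hK1) ψ₀ (by rw [hyψ₀, hμ₁'.2]; omega)
  have hB01 : B₀ ≠ B₁ := by
    intro h
    have h1 := hgram μ₀ μ₁ hK0 hK1 0 (D.J0 (Φ μ₀).2 (Φ μ₁).2 hrel01)
    rw [bl_two_inner (yv φ' (Φ μ₁)) (yv φ' (Φ μ₀)) hB₁ne h11 hB₁ hB₁z, h01, ← h, hB₀] at h1
    norm_num at h1
  have hpos : ∀ μ, ¬ D.Triv (Φ μ) → ¬ D.Rel φ' (Φ μ) → 1 ≤ yv φ' (Φ μ) ψ₀ := by
    intro μ h1 h2
    by_contra hcon
    push Not at hcon
    have hr : ∀ ν, ∃ r : ℤ, 0 ≤ r ∧ D.J (Φ μ) (Φ ν) = r := by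
      intro ν
      by_cases h : D.Rel (Φ μ) (Φ ν)
      · exact ⟨1, by norm_num, D.J1 (Φ μ).2 (Φ ν).2 h1 h⟩
      · exact ⟨0, le_refl _, D.J0 (Φ μ).2 (Φ ν).2 h⟩
    obtain ⟨r0, hr0, hJ0⟩ := hr μ₀
    obtain ⟨r1, hr1, hJ1⟩ := hr μ₁
    have e0 := hgram μ μ₀ h2 hK0 r0 hJ0
    have e1 := hgram μ μ₁ h2 hK1 r1 hJ1
    rw [bl_two_inner (yv φ' (Φ μ₀)) (yv φ' (Φ μ)) hB₀ne h01 hB₀ hB₀z] at e0
    rw [bl_two_inner (yv φ' (Φ μ₁)) (yv φ' (Φ μ)) hB₁ne h11 hB₁ hB₁z] at e1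
    exact bl_two_neg (yv φ' (Φ μ)) _ hdeg (hy0 μ) (hy2 μ h1 h2) hB01 (by omega) (by omega)
  have hstruct : ∀ μ, ∃ B, ¬ D.Triv (Φ μ) → ¬ D.Rel φ' (Φ μ) →
      (yv φ' (Φ μ) ψ₀ = 1 ∧ B ≠ ψ₀ ∧ yv φ' (Φ μ) B = -1 ∧
        ∀ i, i ≠ ψ₀ → i ≠ B → yv φ' (Φ μ) i = 0) := by
    intro μ
    by_cases h1 : D.Triv (Φ μ)
    · exact ⟨ψ₀, fun h => absurd h1 h⟩
    by_cases h2 : D.Rel φ' (Φ μ)
    · exact ⟨ψ₀, fun _ h => absurd h2 h⟩
    obtain ⟨a1, B, a2, a3, a4⟩ := bl_two (yv φ' (Φ μ)) _ hdeg (hy0 μ) (hy2 μ h1 h2) ψ₀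
      (hpos μ h1 h2)
    exact ⟨B, fun _ _ => ⟨a1, a2, a3, a4⟩⟩
  choose B hB using hstruct
  have hκnt := hκT lam hlam1
  have hn1 : ∀ φ'' : IrrCharacter C, ¬ D.Triv φ'' → ¬ D.Rel one φ'' :=
    fun φ'' h hr => h (hr.triv honeT)
  have hn2 : ∀ φ'' : IrrCharacter C, ¬ D.Triv φ'' → ¬ D.Rel φ'' one :=
    fun φ'' h hr => h (hr.symm.triv honeT)
  have hd2 : ∑ ψ : IrrCharacter G, yv one (κ lam) ψ * yv one (κ lam) ψ = (e : ℤ) + 1 := by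
    rw [D.gram_int one (κ lam) one (κ lam) (hκV lam) e 0 0 1
      (by rw [hone, D.J_one_one he]; simp)
      (D.J0 one.2 (κ lam).2 (hn1 _ hκnt)) (D.J0 (κ lam).2 one.2 (hn2 _ hκnt))
      (D.J1 (κ lam).2 (κ lam).2 hκnt (D.rel_refl _))]
    ring
  have hd0 : ∑ ψ : IrrCharacter G, yv one (κ lam) ψ * (ideg ψ : ℤ) = 0 :=
    yv_deg one (κ lam) (hκV lam 1 h1V)
  have hdψ₀ : yv one (κ lam) ψ₀ = blc ψ₀ one := by
    show (blc ψ₀ one : ℤ) - blc ψ₀ (κ lam) = _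
    rw [hlam]; simp
  have hne_one : ∀ φ'' : IrrCharacter C, ¬ D.Triv φ'' → φ'' ≠ one := by
    rintro φ'' h rfl
    exact h honeT
  have hd1 : yv one (κ lam) oneG = 1 := by
    show (blc oneG one : ℤ) - blc oneG (κ lam) = 1
    rw [blc_oneG_self oneG honeG one hone, blc_oneG_ne oneG honeG one hone _ (hne_one _ hκnt)]
    simp
  have hκφ' : ¬ D.Rel (κ lam) φ' := fun h => hnr _ hlam h.symm
  have hdB : ∀ μ, ¬ D.Triv (Φ μ) → ¬ D.Rel φ' (Φ μ) → ¬ D.Rel (κ lam) (Φ μ) →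
      yv one (κ lam) (B μ) = blc ψ₀ one := by
    intro μ h1 h2 h3
    obtain ⟨a1, a2, a3, a4⟩ := hB μ h1 h2
    have := D.gram_int one (κ lam) φ' (Φ μ) (hκV lam) 0 0 0 0 (D.J0 one.2 φ'.2 (hn1 _ hφ'))
      (D.J0 one.2 (Φ μ).2 (hn1 _ h1)) (D.J0 (κ lam).2 φ'.2 hκφ') (D.J0 (κ lam).2 (Φ μ).2 h3)
    rw [bl_two_inner (yv φ' (Φ μ)) (yv one (κ lam)) a2 a1 a3 a4, hdψ₀] at this
    omega
  obtain ⟨ψm, hψm⟩ := bl_exists_neg (yv one (κ lam)) _ hdeg hd0 ψ₀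
    (by rw [hdψ₀]; exact_mod_cast ha)
  set K' := Finset.univ.filter
    (fun μ => ¬ D.Triv (Φ μ) ∧ ¬ D.Rel φ' (Φ μ) ∧ ¬ D.Rel (κ lam) (Φ μ)) with hK'
  have hK'mem : ∀ μ ∈ K', ¬ D.Triv (Φ μ) ∧ ¬ D.Rel φ' (Φ μ) ∧ ¬ D.Rel (κ lam) (Φ μ) := by
    intro μ hμ
    simpa only [hK', Finset.mem_filter, Finset.mem_univ, true_and] using hμ
  have hS : ((insert oneG (insert ψ₀ (insert ψm (K'.image B)))).card : ℤ) ≤ (e : ℤ) + 1 := by
    rw [← hd2]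
    apply bl_sq_card
    intro i hi
    simp only [Finset.mem_insert] at hi
    rcases hi with rfl | rfl | rfl | hi
    · rw [hd1]; norm_num
    · rw [hdψ₀]; omega
    · omega
    · obtain ⟨μ, hμ, rfl⟩ := Finset.mem_image.1 hi
      obtain ⟨h1, h2, h3⟩ := hK'mem μ hμ
      rw [hdB μ h1 h2 h3]; omega
  have hm3 : ψm ∉ K'.image B := by
    intro h
    obtain ⟨μ, hμ, rfl⟩ := Finset.mem_image.1 h
    obtain ⟨h1, h2, h3⟩ := hK'mem μ hμ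
    rw [hdB μ h1 h2 h3] at hψm
    omega
  have hm2 : ψ₀ ∉ insert ψm (K'.image B) := by
    intro h
    rcases Finset.mem_insert.1 h with h | h
    · rw [← h, hdψ₀] at hψm; omega
    · obtain ⟨μ, hμ, h4⟩ := Finset.mem_image.1 h
      obtain ⟨h1, h2, h3⟩ := hK'mem μ hμ
      exact (hB μ h1 h2).2.1 h4
  have hm1 : oneG ∉ insert ψ₀ (insert ψm (K'.image B)) := by
    intro h
    rcases Finset.mem_insert.1 h with h | h
    · apply hc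
      rw [← h]
      exact blc_oneG_ne oneG honeG one hone _ (hne_one _ hφ')
    rcases Finset.mem_insert.1 h with h | h
    · rw [← h, hd1] at hψm; omega
    · obtain ⟨μ, hμ, h4⟩ := Finset.mem_image.1 h
      obtain ⟨h1, h2, h3⟩ := hK'mem μ hμ
      have h5 := (hB μ h1 h2).2.2.1
      rw [h4] at h5
      have h6 : yv φ' (Φ μ) oneG = (blc oneG φ' : ℤ) - blc oneG (Φ μ) := rfl
      rw [h6, blc_oneG_ne oneG honeG one hone _ (hne_one _ hφ'),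
        blc_oneG_ne oneG honeG one hone _ (hne_one _ h1)] at h5
      norm_num at h5
  rw [Finset.card_insert_of_notMem hm1, Finset.card_insert_of_notMem hm2,
    Finset.card_insert_of_notMem hm3] at hS
  have hfib : K'.card ≤ e * (K'.image B).card := by
    apply Finset.card_le_mul_card_image
    intro b hb
    obtain ⟨μ₂, hμ₂, rfl⟩ := Finset.mem_image.1 hb
    obtain ⟨h1, h2, h3⟩ := hK'mem μ₂ hμ₂
    refine le_trans (Finset.card_le_card ?_) (D.tw_fiber he (Φ μ₂) h1 φ')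
    intro μ hμ
    obtain ⟨hμK, hBeq⟩ := Finset.mem_filter.1 hμ
    obtain ⟨g1, g2, g3⟩ := hK'mem μ hμK
    simp only [Finset.mem_filter, Finset.mem_univ, true_and]
    rw [← hΦ μ]
    by_contra hnr'
    have e1 := hgram μ₂ μ h2 g2 0 (D.J0 (Φ μ₂).2 (Φ μ).2 hnr')
    obtain ⟨a1, a2, a3, a4⟩ := hB μ g1 g2
    obtain ⟨b1, b2, b3, b4⟩ := hB μ₂ h1 h2
    rw [bl_two_inner _ _ a2 a1 a3 a4, b1, hBeq, b3] at e1
    norm_num at e1
  have hcover2 : (Finset.univ : Finset (P →* ℂˣ)) ⊆ K' ∪ T ∪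
      Finset.univ.filter (fun μ => D.Rel φ' (blTw π μ φ')) ∪
      Finset.univ.filter (fun μ => D.Rel (κ lam) (blTw π μ φ')) := by
    intro μ _
    simp only [hK', hTdef, Finset.mem_union, Finset.mem_filter, Finset.mem_univ, true_and, ← hΦ]
    tauto
  have hcard2 : q ≤ K'.card + 1 + e + e := by
    rw [← hq, ← Finset.card_univ]
    refine (Finset.card_le_card hcover2).trans ((Finset.card_union_le _ _).trans ?_)
    refine Nat.add_le_add ((Finset.card_union_le _ _).trans ?_) (D.tw_fiber he (κ lam) hκnt φ')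
    refine Nat.add_le_add ((Finset.card_union_le _ _).trans ?_) (D.tw_fiber he φ' hφ' φ')
    exact Nat.add_le_add_left hT _
  have hb : (K'.image B).card + 2 ≤ e := by
    push_cast at hS
    omega
  have h7 := Nat.mul_le_mul_left e hb
  nlinarith

end Cfsg.Agent.Lib.Helper1
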