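import Mathlib
import Cfsg.Agent.Lib.Helper1.BLf
import Cfsg.Agent.Lib.Helper2.CharBasic

/-! Brauer--Leonard: the case `e ≥ 2`. -/

set_option autoImplicit false
set_option linter.style.haveILetI false

namespace Cfsg.Agent.Lib.Helper1

open Cfsg Cfsg.Agent.Lib.Helper25
open scoped ComplexConjugate

universe u

variable {G : Type u} [Group G] {C N V P : Subgroup G} {π : C →* P}

theorem bl_restrict_eq [Finite G] [Fintype C] [Fintype (IrrCharacter C)] (ψ : IrrCharacter G)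
    (c : C) : (ψ : G → ℂ) c = ∑ φ : IrrCharacter C, (blc ψ φ : ℂ) * (φ : C → ℂ) c := by
  have hcf := Helper7.isClassFunction_of_isCharacter
    (Helper7.isCharacter_restrict (Helper7.isCharacter_of_irr ψ.2) C)
  have h1 := congrFun (Helper7.classFunction_eq_sum hcf) c
  rw [Finset.sum_apply] at h1
  simp only [Pi.smul_apply, smul_eq_mul, blc_spec] at h1
  exact h1

theorem BLData.exists_nontriv [Finite G] [Fintype C] [Fintype (IrrCharacter C)]
    (D : BLData C N V P π) (ψ : IrrCharacter G)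
    (h : ¬ ∀ u ∈ P, (ψ : G → ℂ) u = (ψ : G → ℂ) 1) :
    ∃ φ : IrrCharacter C, blc ψ φ ≠ 0 ∧ ¬ D.Triv φ := by
  by_contra hcon
  push Not at hcon
  apply h
  intro u hu
  have h1 := bl_restrict_eq ψ (⟨u, D.hPC hu⟩ : C)
  have h2 := bl_restrict_eq ψ (1 : C)
  rw [Subgroup.coe_one] at h2
  rw [h2]
  refine h1.trans ?_
  apply Finset.sum_congr rfl
  intro φ _
  by_cases hb : blc ψ φ = 0
  · simp [hb]
  · rw [hcon φ hb u hu]

open Classical in
theorem BLData.orbit_bound [Fintype G] [Fintype C] [Fintype N] [Fintype (IrrCharacter C)]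
    (D : BLData C N V P π) {e : ℕ} (he : Nat.card N = e * Nat.card C)
    (χ : IrrCharacter G) (φ : IrrCharacter C) (hnt : ¬ D.Triv φ) (hb : blc χ φ ≠ 0)
    (F : IrrCharacter C → ℕ) (hF : ∀ φ'', blc χ φ'' ≠ 0 → 1 ≤ F φ'') :
    e ≤ ∑ φ'', F φ'' := by
  rw [← D.rel_card he φ hnt, Finset.card_eq_sum_ones]
  refine le_trans ?_ (Finset.sum_le_sum_of_subset (Finset.subset_univ
    (Finset.univ.filter (fun φ'' : IrrCharacter C => D.Rel φ φ''))))
  apply Finset.sum_le_sum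
  intro φ'' h
  apply hF
  rw [← D.blc_cj χ φ φ'' (Finset.mem_filter.1 h).2]
  exact hb

theorem BLData.main_e2 [Fintype G] [Fintype C] [Fintype N] [Fintype (IrrCharacter G)]
    [Fintype (IrrCharacter C)] [Fintype (P →* ℂˣ)]
    (D : BLData C N V P π) {e q : ℕ} (he : Nat.card N = e * Nat.card C)
    (hq : Fintype.card (P →* ℂˣ) = q) (he2 : 2 ≤ e)
    (χ : IrrCharacter G) (hdeg : ideg χ ^ 2 + 1 < q)
    (hχ : ¬ ∀ u ∈ P, (χ : G → ℂ) u = (χ : G → ℂ) 1) :
    ∃ ψ₀ : IrrCharacter G, (ψ₀ : G → ℂ) ≠ (fun _ => 1) ∧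
      ∀ u ∈ P, (ψ₀ : G → ℂ) u = (ψ₀ : G → ℂ) 1 := by
  classical
  obtain ⟨φ, hb, hnt⟩ := D.exists_nontriv χ hχ
  let oneG : IrrCharacter G := ⟨fun _ => 1, Helper7.isIrrCharacter_one⟩
  let one : IrrCharacter C := ⟨fun _ => 1, Helper7.isIrrCharacter_one⟩
  have honeG : (oneG : G → ℂ) = fun _ => 1 := rfl
  have hone : (one : C → ℂ) = fun _ => 1 := rfl
  have he1 : e ≤ ideg χ := by
    rw [blc_deg_sum (C := C) χ]
    exact D.orbit_bound he χ φ hnt hb _
      (fun φ'' h => Nat.mul_pos (Nat.pos_of_ne_zero h) (ideg_pos φ''))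
  have hes : e ≤ ∑ φ'' : IrrCharacter C, blc χ φ'' * blc χ φ'' :=
    D.orbit_bound he χ φ hnt hb _
      (fun φ'' h => Nat.mul_pos (Nat.pos_of_ne_zero h) (Nat.pos_of_ne_zero h))
  set s := ∑ φ'' : IrrCharacter C, blc χ φ'' * blc χ φ'' with hs
  have hχc := Helper7.isCharacter_of_irr χ.2
  set θ : G → ℂ := (χ : G → ℂ) * (fun g => conj ((χ : G → ℂ) g)) with hθ
  have hθc : IsCharacter G θ := Helper7.isCharacter_mul hχc (Helper2.IsCharacter.conj hχc)
  obtain ⟨m, hm, hsum⟩ := Helper7.character_eq_sum_nat hθc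
  have hθg : ∀ g, θ g = ∑ ψ : IrrCharacter G, (m ψ : ℂ) * (ψ : G → ℂ) g := by
    intro g
    have := congrFun hsum g
    simp only [Finset.sum_apply, Pi.smul_apply, nsmul_eq_mul] at this
    exact this
  have hθv : ∀ g, θ g = (χ : G → ℂ) g * conj ((χ : G → ℂ) g) := fun g => rfl
  have hm1 : m oneG = 1 := by
    have h1 := hm oneG
    have h2 : classInner θ (oneG : G → ℂ) = classInner (χ : G → ℂ) (χ : G → ℂ) := by
      unfold classInner
      congr 1
      apply Finset.sum_congr rfl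
      intro g _
      rw [hθv, honeG]; simp
    rw [h2, Helper7.classInner_irr_self χ.2] at h1
    exact_mod_cast h1.symm
  have hsum1 : ∑ ψ : IrrCharacter G, m ψ * ideg ψ = ideg χ ^ 2 := by
    have h1 := hθg 1
    rw [hθv] at h1
    simp only [ideg_spec, map_natCast] at h1
    have h2 : ((ideg χ ^ 2 : ℕ) : ℂ) = ((∑ ψ : IrrCharacter G, m ψ * ideg ψ : ℕ) : ℂ) := by
      push_cast
      rw [← h1]; ring
    exact_mod_cast h2.symm
  have hsum2 : ∑ ψ : IrrCharacter G, m ψ * blc ψ one = s := by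
    have h1 : classInner (fun c : C => θ c) (one : C → ℂ) =
        ∑ ψ : IrrCharacter G, (m ψ : ℂ) * classInner (fun c : C => (ψ : G → ℂ) c) (one : C → ℂ) := by
      unfold classInner
      simp only [hθg, Finset.sum_mul, Finset.mul_sum]
      rw [Finset.sum_comm]
      apply Finset.sum_congr rfl
      intro ψ _
      apply Finset.sum_congr rfl
      intro c _
      ring
    have h2 : classInner (fun c : C => θ c) (one : C → ℂ) =
        classInner (fun c : C => (χ : G → ℂ) c) (fun c : C => (χ : G → ℂ) c) := by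
      unfold classInner
      congr 1
      apply Finset.sum_congr rfl
      intro g _
      show θ (g : G) * conj ((one : C → ℂ) g) = _
      rw [hθv, hone]; simp
    have h3 : classInner (fun c : C => (χ : G → ℂ) c) (fun c : C => (χ : G → ℂ) c) =
        ∑ φ'' : IrrCharacter C, (blc χ φ'' : ℂ) * blc χ φ'' := by
      rw [Helper7.classInner_eq_sum (Helper7.isClassFunction_of_isCharacter
        (Helper7.isCharacter_restrict hχc C))]
      apply Finset.sum_congr rfl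
      intro φ'' _
      rw [blc_spec]; simp
    rw [h2, h3] at h1
    simp only [blc_spec] at h1
    rw [hs]
    exact_mod_cast h1.symm
  obtain ⟨ψ₀, hψ₀ne, hψ₀⟩ : ∃ ψ₀ : IrrCharacter G, ψ₀ ≠ oneG ∧ m ψ₀ * blc ψ₀ one ≠ 0 := by
    by_contra hcon
    push Not at hcon
    have h1 : ∑ ψ : IrrCharacter G, m ψ * blc ψ one = m oneG * blc oneG one := by
      apply Finset.sum_eq_single
      · intro ψ _ hne
        exact hcon ψ hne
      · intro h; exact absurd (Finset.mem_univ _) h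
    rw [hsum2, hm1, blc_oneG_self oneG honeG one hone] at h1
    omega
  have hmψ₀ : 1 ≤ m ψ₀ := Nat.pos_of_ne_zero (fun h => hψ₀ (by rw [h, zero_mul]))
  have ha : 1 ≤ blc ψ₀ one := Nat.pos_of_ne_zero (fun h => hψ₀ (by rw [h, mul_zero]))
  have hle : ∀ ψ : IrrCharacter G, blc ψ one ≤ ideg ψ := by
    intro ψ
    have := blc_count ψ one ∅ (by simp) (by simp)
    simpa using this
  have hsmall0 : (ideg ψ₀ : ℤ) - blc ψ₀ one ≤ (ideg χ : ℤ) ^ 2 - s := by
    have h1 : ∑ ψ : IrrCharacter G, (m ψ : ℤ) * ((ideg ψ : ℤ) - blc ψ one) =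
        (ideg χ : ℤ) ^ 2 - s := by
      simp only [mul_sub, Finset.sum_sub_distrib]
      have e1 : ((∑ ψ : IrrCharacter G, m ψ * ideg ψ : ℕ) : ℤ) = ((ideg χ ^ 2 : ℕ) : ℤ) := by
        rw [hsum1]
      have e2 : ((∑ ψ : IrrCharacter G, m ψ * blc ψ one : ℕ) : ℤ) = (s : ℤ) := by
        rw [hsum2]
      push_cast at e1 e2
      rw [e1, e2]
    rw [← h1]
    have h2 : (m ψ₀ : ℤ) * ((ideg ψ₀ : ℤ) - blc ψ₀ one) ≤
        ∑ ψ : IrrCharacter G, (m ψ : ℤ) * ((ideg ψ : ℤ) - blc ψ one) :=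
      Finset.single_le_sum (f := fun ψ : IrrCharacter G => (m ψ : ℤ) * ((ideg ψ : ℤ) - blc ψ one))
        (fun ψ _ => mul_nonneg (by positivity) (by have := hle ψ; omega)) (Finset.mem_univ ψ₀)
    refine le_trans ?_ h2
    have h3 : (0 : ℤ) ≤ (ideg ψ₀ : ℤ) - blc ψ₀ one := by have := hle ψ₀; omega
    have h4 : (1 : ℤ) ≤ m ψ₀ := by exact_mod_cast hmψ₀
    nlinarith
  have hsmall : ideg ψ₀ + e + 2 ≤ q + blc ψ₀ one := by
    have h1 : (ideg χ : ℤ) ^ 2 + 1 < q := by exact_mod_cast hdeg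
    have h2 : (e : ℤ) ≤ s := by exact_mod_cast hes
    have h3 : (ideg ψ₀ : ℤ) + e + 2 ≤ q + blc ψ₀ one := by linarith
    exact_mod_cast h3
  have heq : e ^ 2 + 1 < q := lt_of_le_of_lt (Nat.add_le_add_right (Nat.pow_le_pow_left he1 2) 1) hdeg
  refine ⟨ψ₀, fun h => hψ₀ne (Subtype.ext h), ?_⟩
  by_contra hcon
  obtain ⟨φ', hc, hφ'⟩ := D.exists_nontriv ψ₀ hcon
  exact D.lemmaK he hq heq oneG ψ₀ honeG one φ' hone ha hφ' hc hsmall

end Cfsg.Agent.Lib.Helper1
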