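import Mathlib
import Cfsg.Agent.Lib.Helper1.BLb
import Cfsg.Agent.Lib.Helper1.TISylA
import Cfsg.Agent.Lib.Helper25.Cop3

/-! Brauer--Leonard: constructing the data. -/

set_option autoImplicit false
set_option linter.style.haveILetI false

namespace Cfsg.Agent.Lib.Helper1

open Cfsg Cfsg.Agent.Lib.Helper25

universe u

variable {G : Type u} [Group G]

theorem bl_complement {X : Type u} [Group X] [Finite X] {p : ℕ} [Fact p.Prime] (Q : Sylow p X)
    (hQ : Subgroup.normalizer ((Q : Subgroup X) : Set X) ≤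
      Subgroup.centralizer ((Q : Subgroup X) : Set X)) :
    ∃ K : Subgroup X, K.Normal ∧ K ⊔ Q = ⊤ ∧ (Nat.card K).Coprime p ∧ K.index = Nat.card Q := by
  have h := MonoidHom.ker_transferSylow_isComplement' Q hQ
  refine ⟨_, inferInstance, h.sup_eq_top, ?_, ?_⟩
  · rw [← h.index_eq_card]
    exact (Nat.Coprime.symm ((Nat.Prime.coprime_iff_not_dvd Fact.out).2 Q.not_dvd_index))
  · exact h.symm.index_eq_card

theorem bl_abelian [Finite G] {p : ℕ} (hp : p.Prime) (hpG : p ∣ Nat.card G) (P : Sylow p G)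
    (hstar : ∀ x ∈ (P : Subgroup G), x ≠ 1 → Subgroup.centralizer ({x} : Set G) =
      Subgroup.centralizer ((P : Subgroup G) : Set G)) :
    (P : Subgroup G) ≤ Subgroup.centralizer ((P : Subgroup G) : Set G) := by
  haveI : Fact p.Prime := ⟨hp⟩
  have hne : (P : Subgroup G) ≠ ⊥ := P.ne_bot_of_dvd_card hpG
  haveI : Nontrivial (P : Subgroup G) := (Subgroup.nontrivial_iff_ne_bot _).2 hne
  haveI := P.2.center_nontrivial
  obtain ⟨z, hz⟩ := exists_ne (1 : Subgroup.center (P : Subgroup G))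
  have hz1 : ((z : (P : Subgroup G)) : G) ≠ 1 := by
    intro h
    apply hz
    apply Subtype.ext
    apply Subtype.ext
    exact h
  rw [← hstar _ (z : (P : Subgroup G)).2 hz1]
  intro u hu
  rw [Subgroup.mem_centralizer_singleton_iff]
  have := (Subgroup.mem_center_iff.1 z.2) ⟨u, hu⟩
  exact congrArg Subtype.val this

theorem bl_data_of [Finite G] {p : ℕ} (hp : p.Prime) (P : Sylow p G)
    (hstar : ∀ x ∈ (P : Subgroup G), x ≠ 1 → Subgroup.centralizer ({x} : Set G) =
      Subgroup.centralizer ((P : Subgroup G) : Set G))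
    (V : Subgroup G)
    (π : Subgroup.centralizer ((P : Subgroup G) : Set G) →* (P : Subgroup G))
    (hPC : (P : Subgroup G) ≤ Subgroup.centralizer ((P : Subgroup G) : Set G))
    (hVC : V ≤ Subgroup.centralizer ((P : Subgroup G) : Set G))
    (hπV : ∀ c : Subgroup.centralizer ((P : Subgroup G) : Set G), π c = 1 ↔ (c : G) ∈ V)
    (hπP : ∀ (u : G) (hu : u ∈ (P : Subgroup G)), π ⟨u, hPC hu⟩ = ⟨u, hu⟩)
    (m : ℕ) (hm : m.Coprime p) (hVm : ∀ v ∈ V, v ^ m = 1) :
    BLData (Subgroup.centralizer ((P : Subgroup G) : Set G))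
      (Subgroup.normalizer ((P : Subgroup G) : Set G)) V (P : Subgroup G) π := by
  haveI : Fact p.Prime := ⟨hp⟩
  obtain ⟨n, hn⟩ := IsPGroup.iff_card.1 P.2
  have hcop : Nat.Coprime m (p ^ n) := Nat.Coprime.pow_right n hm
  have hPq : ∀ u ∈ (P : Subgroup G), u ^ (p ^ n) = 1 := by
    intro u hu
    have := pow_card_eq_one' (x := (⟨u, hu⟩ : (P : Subgroup G)))
    rw [hn] at this
    exact congrArg Subtype.val this
  have hone : ∀ x : G, x ^ m = 1 → x ^ (p ^ n) = 1 → x = 1 := by
    intro x h1 h2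
    have := ti_mem_of_pow (⊥ : Subgroup G) hcop (Subgroup.mem_bot.2 h1) (Subgroup.mem_bot.2 h2)
    exact Subgroup.mem_bot.1 this
  have hcent : ∀ u ∈ (P : Subgroup G), ∀ c ∈ Subgroup.centralizer ((P : Subgroup G) : Set G),
      u * c = c * u := fun u hu c hc => Subgroup.mem_centralizer_iff.1 hc u hu
  -- decomposition
  have hdec : ∀ c : Subgroup.centralizer ((P : Subgroup G) : Set G),
      (c : G) * ((π c : (P : Subgroup G)) : G)⁻¹ ∈ V := by
    intro c
    have h1 : π (c * (⟨((π c : (P : Subgroup G)) : G), hPC (π c).2⟩ :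
        Subgroup.centralizer ((P : Subgroup G) : Set G))⁻¹) = 1 := by
      rw [map_mul, map_inv, hπP _ (π c).2]
      simp
    exact (hπV _).1 h1
  have hpow : ∀ (c : Subgroup.centralizer ((P : Subgroup G) : Set G)) (k : ℕ),
      (c : G) ^ k = ((c : G) * ((π c : (P : Subgroup G)) : G)⁻¹) ^ k *
        ((π c : (P : Subgroup G)) : G) ^ k := by
    intro c k
    have hcomm : Commute ((c : G) * ((π c : (P : Subgroup G)) : G)⁻¹)
        ((π c : (P : Subgroup G)) : G) := by
      have h1 : Commute (c : G) ((π c : (P : Subgroup G)) : G) := (hcent _ (π c).2 c c.2).symm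
      exact (h1.mul_left ((Commute.refl _).inv_left))
    rw [← hcomm.mul_pow]
    simp
  have hpowm : ∀ c : Subgroup.centralizer ((P : Subgroup G) : Set G),
      (c : G) ^ m = ((π c : (P : Subgroup G)) : G) ^ m := by
    intro c
    rw [hpow c m, hVm _ (hdec c), one_mul]
  have hPmem : ∀ c ∈ Subgroup.centralizer ((P : Subgroup G) : Set G), c ^ (p ^ n) = 1 →
      c ∈ (P : Subgroup G) := by
    intro c hc hcq
    have h1 := hpow ⟨c, hc⟩ (p ^ n)
    rw [hPq _ (π ⟨c, hc⟩).2, mul_one] at h1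
    have h2 := hone _ (hVm _ (hdec ⟨c, hc⟩)) (h1.symm.trans hcq)
    have h3 : c = ((π ⟨c, hc⟩ : (P : Subgroup G)) : G) := mul_inv_eq_one.1 h2
    rw [h3]
    exact (π ⟨c, hc⟩).2
  have hπ1 : ∀ c : Subgroup.centralizer ((P : Subgroup G) : Set G), (c : G) ^ m = 1 → π c = 1 := by
    intro c h
    apply Subtype.ext
    rw [hpowm c] at h
    exact hone _ h (hPq _ (π c).2)
  have hNP : ∀ x ∈ Subgroup.normalizer ((P : Subgroup G) : Set G), ∀ u ∈ (P : Subgroup G),
      x * u * x⁻¹ ∈ (P : Subgroup G) := fun x hx u hu => (Subgroup.mem_normalizer_iff.1 hx u).1 hu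
  have hNC : ∀ x ∈ Subgroup.normalizer ((P : Subgroup G) : Set G),
      ∀ c ∈ Subgroup.centralizer ((P : Subgroup G) : Set G),
      x * c * x⁻¹ ∈ Subgroup.centralizer ((P : Subgroup G) : Set G) := by
    intro x hx c hc
    rw [Subgroup.mem_centralizer_iff]
    intro u hu
    have hu' : x⁻¹ * u * x ∈ (P : Subgroup G) := by
      have := hNP x⁻¹ (Subgroup.inv_mem _ hx) u hu
      rwa [inv_inv] at this
    have h1 := hcent _ hu' c hc
    calc u * (x * c * x⁻¹) = x * ((x⁻¹ * u * x) * c) * x⁻¹ := by group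
      _ = x * (c * (x⁻¹ * u * x)) * x⁻¹ := by rw [h1]
      _ = x * c * x⁻¹ * u := by group
  have hkey : ∀ (z w : G), w ∈ (P : Subgroup G) → z * w * z⁻¹ ∈ (P : Subgroup G) →
      z * w * z⁻¹ ≠ 1 → ∀ u ∈ (P : Subgroup G), z * u * z⁻¹ ∈ (P : Subgroup G) := by
    intro z w hw hw' hw'1 u hu
    apply hPmem
    · rw [← hstar _ hw' hw'1, Subgroup.mem_centralizer_singleton_iff]
      have h1 : u * w = w * u := hcent u hu w (hPC hw)
      calc z * u * z⁻¹ * (z * w * z⁻¹) = z * (u * w) * z⁻¹ := by group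
        _ = z * (w * u) * z⁻¹ := by rw [h1]
        _ = z * w * z⁻¹ * (z * u * z⁻¹) := by group
    · rw [conj_pow, hPq u hu]; simp
  refine ⟨hPC, ?_, hcent, hNC, hNP, ?_, ?_, ?_, hπV, hπP⟩
  · intro c hc
    rw [Subgroup.mem_normalizer_iff]
    intro u
    constructor
    · intro hu
      have : c * u * c⁻¹ = u := by rw [← hcent u hu c hc]; group
      rwa [this]
    · intro hu
      have h1 := hcent _ hu c hc
      have : u = c * u * c⁻¹ := by
        have h2 : c * u * c⁻¹ * c = c * u := by group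
        rw [h2] at h1
        have h3 : u = c * u * c⁻¹ := mul_left_cancel h1
        exact h3
      rwa [this]
  · intro x hx v hv
    have hc := hNC x hx v (hVC hv)
    rw [← hπV ⟨_, hc⟩]
    apply hπ1
    show (x * v * x⁻¹) ^ m = 1
    rw [conj_pow, hVm v hv]; simp
  · intro c hc hcV x hx
    have hw : c ^ m ∈ (P : Subgroup G) := by
      rw [hpowm ⟨c, hc⟩]
      exact Subgroup.pow_mem _ (π ⟨c, hc⟩).2 _
    have hw1 : c ^ m ≠ 1 := by
      intro h
      exact hcV ((hπV ⟨c, hc⟩).1 (hπ1 ⟨c, hc⟩ h))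
    have hw' : x * c ^ m * x⁻¹ ∈ (P : Subgroup G) := by
      rw [← conj_pow, hpowm ⟨_, hx⟩]
      exact Subgroup.pow_mem _ (π ⟨_, hx⟩).2 _
    have hw'1 : x * c ^ m * x⁻¹ ≠ 1 := by
      intro h
      apply hw1
      have : c ^ m = x⁻¹ * (x * c ^ m * x⁻¹) * x := by group
      rw [this, h]; group
    rw [Subgroup.mem_normalizer_iff]
    intro u
    constructor
    · exact hkey x _ hw hw' hw'1 u
    · intro hu
      have e1 : x⁻¹ * (x * c ^ m * x⁻¹) * x⁻¹⁻¹ = c ^ m := by group
      have := hkey x⁻¹ _ hw' (by rw [e1]; exact hw) (by rw [e1]; exact hw1) _ hu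
      have e2 : x⁻¹ * (x * u * x⁻¹) * x⁻¹⁻¹ = u := by group
      rwa [e2] at this
  · intro x _ hxC u hu hxu
    by_contra hu1
    apply hxC
    rw [← hstar u hu hu1, Subgroup.mem_centralizer_singleton_iff]
    exact hxu

theorem bl_data [Finite G] {p : ℕ} (hp : p.Prime) (hpG : p ∣ Nat.card G) (P : Sylow p G)
    (hstar : ∀ x ∈ (P : Subgroup G), x ≠ 1 → Subgroup.centralizer ({x} : Set G) =
      Subgroup.centralizer ((P : Subgroup G) : Set G)) :
    ∃ (V : Subgroup G)
      (π : Subgroup.centralizer ((P : Subgroup G) : Set G) →* (P : Subgroup G)),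
    BLData (Subgroup.centralizer ((P : Subgroup G) : Set G))
      (Subgroup.normalizer ((P : Subgroup G) : Set G)) V (P : Subgroup G) π := by
  haveI : Fact p.Prime := ⟨hp⟩
  have hPC := bl_abelian hp hpG P hstar
  obtain ⟨K, hKn, hsup, hcop, -⟩ := bl_complement (P.subtype hPC) (by
    intro c _
    rw [Subgroup.mem_centralizer_iff]
    intro h hh
    apply Subtype.ext
    have hh' : (h : G) ∈ (P : Subgroup G) := hh
    exact Subgroup.mem_centralizer_iff.1 c.2 _ hh')
  obtain ⟨r, hr⟩ := IsPGroup.iff_card.1 (P.subtype hPC).2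
  rw [Sylow.coe_subtype] at hsup hr
  obtain ⟨π', hker, hπ'⟩ := exists_retract K _ hsup
    (by rw [hr]; exact Nat.Coprime.pow_right r hcop)
  have hmem : ∀ c, (((π' c : _) :
      Subgroup.centralizer ((P : Subgroup G) : Set G)) : G) ∈ (P : Subgroup G) :=
    fun c => Subgroup.mem_subgroupOf.1 (π' c).2
  obtain ⟨π, hπval⟩ : ∃ π : Subgroup.centralizer ((P : Subgroup G) : Set G) →* (P : Subgroup G),
      ∀ c, ((π c : (P : Subgroup G)) : G) = (((π' c : _) :
      Subgroup.centralizer ((P : Subgroup G) : Set G)) : G) :=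
    ⟨((Subgroup.centralizer ((P : Subgroup G) : Set G)).subtype.comp
      ((Subgroup.subtype _).comp π')).codRestrict (P : Subgroup G) hmem, fun c => rfl⟩
  refine ⟨K.map (Subgroup.subtype _), π, bl_data_of hp P hstar _ π hPC ?_ ?_ ?_ (Nat.card K) hcop ?_⟩
  · rintro _ ⟨k, _, rfl⟩
    exact k.2
  · intro c
    have h1 : π c = 1 ↔ π' c = 1 := by
      constructor
      · intro h
        apply Subtype.ext
        apply Subtype.ext
        rw [← hπval, h]; rfl
      · intro h
        apply Subtype.ext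
        rw [hπval, h]; rfl
    rw [h1, ← MonoidHom.mem_ker, hker]
    constructor
    · intro h
      exact ⟨c, h, rfl⟩
    · rintro ⟨k, hk, hkc⟩
      have : k = c := Subtype.ext hkc
      rwa [← this]
  · intro u hu
    apply Subtype.ext
    rw [hπval]
    have := hπ' ⟨⟨u, hPC hu⟩, Subgroup.mem_subgroupOf.2 hu⟩
    rw [this]
  · rintro _ ⟨k, hk, rfl⟩
    have := pow_card_eq_one' (x := (⟨k, hk⟩ : K))
    have h2 : k ^ Nat.card K = 1 := congrArg Subtype.val this
    have h3 := congrArg Subtype.val h2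
    simpa using h3

end Cfsg.Agent.Lib.Helper1
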