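import Mathlib
import Cfsg.Agent.Lib.Helper1.TISylC
import Cfsg.Agent.Lib.Helper1.BLh
import Cfsg.Agent.Lib.Helper25.AbQuot
import Cfsg.Agent.Lib.Helper25.Kernel2

/-! Brauer--Leonard: the case `N = C`. -/

set_option autoImplicit false
set_option linter.style.haveILetI false

namespace Cfsg.Agent.Lib.Helper1

open Cfsg Cfsg.Agent.Lib.Helper25
open scoped ComplexConjugate

universe u

theorem ti_core_ker {X : Type u} [Group X] [Finite X] (K P : Subgroup X) [hK : K.Normal] {p : ℕ}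
    (hp : p.Prime) (hKP : K ⊔ P = ⊤) (hcop : (Nat.card K).Coprime p) (hP : IsPGroup p P)
    (hfix : ∀ u ∈ P, u ≠ 1 → ∀ k ∈ K, k * u = u * k → ∀ v ∈ P, k * v = v * k)
    {χ : X → ℂ} (hχ : IsCharacter X χ)
    (d : ℕ) (hd : χ 1 = d) (hdeg : d ^ 2 ≤ Nat.card P) :
    ∀ u ∈ P, ∀ k ∈ K, χ (u * k * u⁻¹ * k⁻¹) = χ 1 := by
  classical
  cases nonempty_fintype X
  have : Finite (IrrCharacter K) := Helper2.finite_irrCharacter
  let _ : Fintype (IrrCharacter K) := Fintype.ofFinite _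
  haveI : Fact p.Prime := ⟨hp⟩
  by_cases hbot : ∀ u ∈ P, u = 1
  · intro u hu k _
    rw [hbot u hu]; simp
  have hP1 : 1 < Nat.card P := by
    push Not at hbot
    obtain ⟨u₀, hu₀, hu₀1⟩ := hbot
    haveI : Nontrivial P := ⟨⟨u₀, hu₀⟩, 1, fun h => hu₀1 (congrArg Subtype.val h)⟩
    exact Finite.one_lt_card
  have hnorm : ∀ s ∈ P, ∀ g ∈ K, s * g * s⁻¹ ∈ K := fun m _ n hn => hK.conj_mem n hn m
  obtain ⟨r, hr⟩ := IsPGroup.iff_card.1 hP
  have hcop' : (Nat.card K).Coprime (Nat.card P) := by rw [hr]; exact Nat.Coprime.pow_right r hcop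
  have hsolv : Group.IsSolvable P := by
    haveI := hP.isNilpotent
    infer_instance
  set C := K ⊓ Subgroup.centralizer (P : Set X) with hCdef
  have hC : ∀ u ∈ P, u ≠ 1 → C = fixSub K u := by
    intro u hu hu1
    ext x
    rw [hCdef, mem_fixSub, Subgroup.mem_inf, Subgroup.mem_centralizer_iff]
    constructor
    · rintro ⟨hx, h⟩
      exact ⟨hx, (h u hu).symm⟩
    · rintro ⟨hx, h⟩
      exact ⟨hx, fun v hv => (hfix u hu hu1 x hx h v hv).symm⟩
  have hχK := Helper7.isCharacter_restrict hχ K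
  obtain ⟨m, hm, hsum⟩ := Helper7.character_eq_sum_nat hχK
  choose e he0 he using fun η : IrrCharacter K => Helper7.irr_apply_one η.2
  have hdsum : d = ∑ η : IrrCharacter K, m η * e η := by
    have h1 := congrFun hsum 1
    simp only [Finset.sum_apply, Pi.smul_apply, he, Subgroup.coe_one, hd] at h1
    simp only [nsmul_eq_mul] at h1
    exact_mod_cast h1
  obtain ⟨π, hπK, hπH⟩ := exists_retract K P hKP hcop'
  have hker : ∀ θ : IrrCharacter K, m θ ≠ 0 → ∀ u ∈ P, ∀ k : K, ∀ c : K,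
      (c : X) = u * k * u⁻¹ * (k : X)⁻¹ → (θ : K → ℂ) c = (θ : K → ℂ) 1 := by
    intro θ hmθ u hu k c hc
    have hinv : InvUnder K P (θ : K → ℂ) := by
      by_contra hni
      have h1 : Nat.card P ≤ d := by
        refine ti_orbit K P hχ d hd θ (by rw [hm]; exact_mod_cast hmθ) ?_
        intro w hw hw1 h2
        exact hni (ti_inv_of_one K P hsolv hnorm hcop' w hw (hC w hw hw1).symm θ h2)
      have h2 : d ^ 2 ≤ d := hdeg.trans h1
      have h3 : 1 < d := lt_of_lt_of_le hP1 h1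
      nlinarith
    obtain ⟨Ξ, hΞ, hΞK⟩ := exists_ext_of_invUnder K P π hπK hπH hcop' θ.2 hinv
    have hres : IsIrrCharacter K (fun g : K => Ξ g) := by
      have : (fun g : K => Ξ g) = (θ : K → ℂ) := funext hΞK
      rw [this]; exact θ.2
    have hΞ1 : Ξ 1 = e θ := by
      have := hΞK 1
      rw [Subgroup.coe_one] at this
      rw [this, he]
    have hle : e θ ≤ d := by
      rw [hdsum]
      refine le_trans ?_ (Finset.single_le_sum (f := fun η => m η * e η)
        (fun _ _ => Nat.zero_le _) (Finset.mem_univ θ))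
      exact Nat.le_mul_of_pos_left _ (Nat.pos_of_ne_zero hmθ)
    have hdeg' : e θ ^ 2 ≤ Nat.card P := (Nat.pow_le_pow_left hle 2).trans hdeg
    have h1 := ti_norm K P hp hcop hP C hC hΞ hres (e θ) hΞ1 hdeg' u hu
    have h2 := ti_comm_ker (Helper7.isCharacter_of_irr hΞ) (e θ) hΞ1 h1 k
    rw [← hΞK, ← hΞK, hc, h2, Subgroup.coe_one]
  intro u hu k hk
  have hc : u * k * u⁻¹ * k⁻¹ ∈ K := K.mul_mem (hnorm u hu k hk) (K.inv_mem hk)
  have h1 : χ (u * k * u⁻¹ * k⁻¹) = χ 1 := by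
    have h2 := congrFun hsum ⟨_, hc⟩
    have h3 := congrFun hsum 1
    simp only [Finset.sum_apply, Pi.smul_apply, Subgroup.coe_one] at h2 h3
    rw [h2, h3]
    apply Finset.sum_congr rfl
    intro θ _
    by_cases hmθ : m θ = 0
    · rw [hmθ]; simp
    · rw [hker θ hmθ u hu ⟨k, hk⟩ ⟨_, hc⟩ rfl]
  exact h1

variable {G : Type u} [Group G]

/-- the kernel of a character -/
def blKer [Finite G] {χ : G → ℂ} (hχ : IsCharacter G χ) : Subgroup G where
  carrier := {g | χ g = χ 1}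
  one_mem' := rfl
  mul_mem' := by
    intro a b ha hb
    show χ (a * b) = χ 1
    rw [char_mul_of_mem_ker hχ ha b]; exact hb
  inv_mem' := by
    intro a ha
    show χ a⁻¹ = χ 1
    have := char_mul_of_mem_ker hχ ha a⁻¹
    rw [mul_inv_cancel] at this
    exact this.symm

theorem blKer_normal [Finite G] {χ : G → ℂ} (hχ : IsCharacter G χ) : (blKer hχ).Normal := by
  refine ⟨?_⟩
  intro n hn g
  show χ (g * n * g⁻¹) = χ 1
  rw [Helper7.isClassFunction_of_isCharacter hχ]; exact hn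

theorem blKer_ne_top [Finite G] {χ : G → ℂ} (hχ : IsIrrCharacter G χ) (h1 : χ ≠ fun _ => 1) :
    blKer (Helper7.isCharacter_of_irr hχ) ≠ ⊤ := by
  classical
  cases nonempty_fintype G
  intro htop
  have hall : ∀ g, χ g = χ 1 := by
    intro g
    have : g ∈ blKer (Helper7.isCharacter_of_irr hχ) := by rw [htop]; trivial
    exact this
  have h2 := Helper7.classInner_irr_ne hχ (Helper7.isIrrCharacter_one (G := G)) h1
  have h3 : classInner χ (fun _ : G => (1 : ℂ)) = χ 1 := by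
    unfold classInner
    simp only [map_one, mul_one]
    rw [Finset.sum_congr rfl (fun g _ => hall g), Finset.sum_const, Finset.card_univ,
      nsmul_eq_mul, ← Nat.card_eq_fintype_card, ← mul_assoc, inv_mul_cancel₀, one_mul]
    exact_mod_cast Nat.card_pos.ne'
  rw [h3] at h2
  exact Helper7.irr_apply_one_ne_zero hχ h2

theorem bl_e1 [Finite G] {p : ℕ} (hp : p.Prime) (P : Sylow p G)
    (hstar : ∀ x ∈ (P : Subgroup G), x ≠ 1 → Subgroup.centralizer ({x} : Set G) =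
      Subgroup.centralizer ((P : Subgroup G) : Set G))
    (hPC : (P : Subgroup G) ≤ Subgroup.centralizer ((P : Subgroup G) : Set G))
    (hNC : Subgroup.normalizer ((P : Subgroup G) : Set G) ≤
      Subgroup.centralizer ((P : Subgroup G) : Set G))
    {χ : G → ℂ} (hχ : IsIrrCharacter G χ) (d : ℕ) (hd : χ 1 = d) (hdeg : d ^ 2 ≤ Nat.card P) :
    (∃ K : Subgroup G, K.Normal ∧ K ≠ ⊤ ∧ (P : Subgroup G) ≤ K) ∨
      ((∃ N : Subgroup G, N.Normal ∧ N.index = Nat.card P) ∧ χ 1 = 1) := by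
  haveI : Fact p.Prime := ⟨hp⟩
  have hχc := Helper7.isCharacter_of_irr hχ
  obtain ⟨K₀, hK₀n, hsup, hcop, hidx⟩ := bl_complement P hNC
  have h := ti_core_ker K₀ (P : Subgroup G) hp hsup hcop P.2 (by
    intro u hu hu1 k _ hku v hv
    have h1 : k ∈ Subgroup.centralizer ({u} : Set G) :=
      Subgroup.mem_centralizer_singleton_iff.2 hku
    rw [hstar u hu hu1] at h1
    exact (Subgroup.mem_centralizer_iff.1 h1 v hv).symm) hχc d hd hdeg
  haveI hMn := blKer_normal hχc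
  set M := blKer hχc with hM
  set Z := (Subgroup.center (G ⧸ M)).comap (QuotientGroup.mk' M) with hZ
  have hZn : Z.Normal := inferInstance
  have hPZ : (P : Subgroup G) ≤ Z := by
    intro u hu
    rw [hZ, Subgroup.mem_comap, Subgroup.mem_center_iff]
    intro ybar
    obtain ⟨y, rfl⟩ := QuotientGroup.mk'_surjective M ybar
    rw [← map_mul, ← map_mul]
    show (QuotientGroup.mk (y * u) : G ⧸ M) = QuotientGroup.mk (u * y)
    rw [QuotientGroup.eq]
    have hy : y ∈ K₀ ⊔ (P : Subgroup G) := by rw [hsup]; trivial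
    rw [← SetLike.mem_coe, Subgroup.normal_mul] at hy
    obtain ⟨k, hk, v, hv, rfl⟩ := Set.mem_mul.1 hy
    have h1 : u⁻¹ * k⁻¹ * u⁻¹⁻¹ * k⁻¹⁻¹ ∈ M :=
      h u⁻¹ (Subgroup.inv_mem _ hu) k⁻¹ (Subgroup.inv_mem _ hk)
    have h2 := hMn.conj_mem _ h1 v⁻¹
    have huv : u * v = v * u := Subgroup.mem_centralizer_iff.1 (hPC hv) u hu
    have huv' : u⁻¹ * v⁻¹ = v⁻¹ * u⁻¹ := by
      rw [← mul_inv_rev, ← mul_inv_rev, huv]
    have e1 : (k * v * u)⁻¹ * (u * (k * v)) = v⁻¹ * (u⁻¹ * k⁻¹ * u⁻¹⁻¹ * k⁻¹⁻¹) * v⁻¹⁻¹ := by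
      calc (k * v * u)⁻¹ * (u * (k * v)) = (u⁻¹ * v⁻¹) * k⁻¹ * u * k * v := by group
        _ = (v⁻¹ * u⁻¹) * k⁻¹ * u * k * v := by rw [huv']
        _ = _ := by group
    rw [e1]
    exact h2
  by_cases htop : Z = ⊤
  · right
    refine ⟨⟨K₀, hK₀n, hidx⟩, ?_⟩
    apply linear_of_abelian_mod_ker hχ
    intro x y
    have hx : x ∈ Z := by rw [htop]; trivial
    rw [hZ, Subgroup.mem_comap, Subgroup.mem_center_iff] at hx
    have h1 := hx (QuotientGroup.mk' M y)
    have h2 : x * y * x⁻¹ * y⁻¹ ∈ M := by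
      rw [← QuotientGroup.eq_one_iff]
      show QuotientGroup.mk' M (x * y * x⁻¹ * y⁻¹) = 1
      rw [map_mul, map_mul, map_mul, ← h1, map_inv, map_inv]
      group
    exact h2
  · left
    exact ⟨Z, hZn, htop, hPZ⟩

end Cfsg.Agent.Lib.Helper1
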