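import Mathlib
import Cfsg.Agent.Lib.Helper1.BLg
import Cfsg.Agent.Lib.Helper1.BLi
import Cfsg.Agent.Lib.Helper25.Codegree

/-! Brauer--Leonard: the theorem for irreducible characters. -/

set_option autoImplicit false
set_option linter.style.haveILetI false

namespace Cfsg.Agent.Lib.Helper1

open Cfsg Cfsg.Agent.Lib.Helper25
open scoped ComplexConjugate

universe u

variable {G : Type u} [Group G]

theorem bl_card_hom {W : Type u} [Group W] [Finite W] (hc : ∀ a b : W, a * b = b * a) :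
    Nat.card (W →* ℂˣ) = Nat.card W := by
  let _ : CommGroup W := { ‹Group W› with mul_comm := hc }
  exact CommGroup.card_monoidHom_of_hasEnoughRootsOfUnity W ℂ

theorem bl_main [Finite G] (p : ℕ) (hp : p.Prime) (hpG : p ∣ Nat.card G) (P : Sylow p G)
    (hstar : ∀ x ∈ (P : Subgroup G), x ≠ 1 → Subgroup.centralizer ({x} : Set G) =
      Subgroup.centralizer ((P : Subgroup G) : Set G)) (n : ℕ) (hn : Nat.card P = p ^ n)
    (χ : Cfsg.IrrCharacter G) (h1 : (χ : G → ℂ) ≠ fun _ => 1)
    (hdeg : Cfsg.charDegree (χ : G → ℂ) ^ 2 + 1 < p ^ n) :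
    (∃ K : Subgroup G, K.Normal ∧ K ≠ ⊤ ∧ (P : Subgroup G) ≤ K) ∨
      ((∃ N : Subgroup G, N.Normal ∧ N.index = p ^ n) ∧ Cfsg.charDegree (χ : G → ℂ) = 1) := by
  classical
  haveI : Fact p.Prime := ⟨hp⟩
  cases nonempty_fintype G
  have hPC := bl_abelian hp hpG P hstar
  obtain ⟨V, π, D⟩ := bl_data hp hpG P hstar
  have hχc := Helper7.isCharacter_of_irr χ.2
  have hd : (χ : G → ℂ) 1 = ideg χ := ideg_spec χ
  have hcd : charDegree (χ : G → ℂ) = ideg χ := charDegree_eq hd
  rw [hcd] at hdeg ⊢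
  by_cases hker : ∀ u ∈ (P : Subgroup G), (χ : G → ℂ) u = (χ : G → ℂ) 1
  · left
    exact ⟨blKer hχc, blKer_normal hχc, blKer_ne_top χ.2 h1, fun u hu => hker u hu⟩
  obtain ⟨e, he⟩ : ∃ e, Nat.card (Subgroup.normalizer ((P : Subgroup G) : Set G)) =
      e * Nat.card (Subgroup.centralizer ((P : Subgroup G) : Set G)) := by
    obtain ⟨e, he⟩ := Subgroup.card_dvd_of_le D.hCN
    exact ⟨e, by rw [he, mul_comm]⟩
  have hcomm : ∀ a b : (P : Subgroup G), a * b = b * a := by
    intro a b
    apply Subtype.ext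
    exact D.hcent a a.2 b (hPC b.2)
  have hcardhom := bl_card_hom hcomm
  haveI : Finite ((P : Subgroup G) →* ℂˣ) := Nat.finite_of_card_ne_zero (by
    rw [hcardhom]; exact Nat.card_pos.ne')
  let _ : Fintype ((P : Subgroup G) →* ℂˣ) := Fintype.ofFinite _
  have : Finite (IrrCharacter G) := Helper2.finite_irrCharacter
  let _ : Fintype (IrrCharacter G) := Fintype.ofFinite _
  have : Finite (IrrCharacter (Subgroup.centralizer ((P : Subgroup G) : Set G))) :=
    Helper2.finite_irrCharacter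
  let _ : Fintype (IrrCharacter (Subgroup.centralizer ((P : Subgroup G) : Set G))) :=
    Fintype.ofFinite _
  have hq : Fintype.card ((P : Subgroup G) →* ℂˣ) = p ^ n := by
    rw [← Nat.card_eq_fintype_card, hcardhom]; exact hn
  have he0 : e ≠ 0 := by
    rintro rfl
    rw [zero_mul] at he
    exact Nat.card_pos.ne' he
  by_cases he1 : e = 1
  · rw [he1, one_mul] at he
    have hNC : Subgroup.normalizer ((P : Subgroup G) : Set G) ≤
        Subgroup.centralizer ((P : Subgroup G) : Set G) := by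
      have := Subgroup.eq_of_le_of_card_ge D.hCN he.le
      rw [this]
    have := bl_e1 hp P hstar hPC hNC χ.2 (ideg χ) hd (by
      have : Nat.card (P : Subgroup G) = p ^ n := hn
      rw [this]; omega)
    rcases this with h | ⟨⟨K, hK, hKi⟩, h⟩
    · left; exact h
    · right
      refine ⟨⟨K, hK, by rw [hKi]; exact hn⟩, ?_⟩
      rw [hd] at h
      exact_mod_cast h
  · left
    obtain ⟨ψ₀, hψ₀, hψ₀P⟩ := D.main_e2 he hq (by omega) χ hdeg hker
    exact ⟨blKer (Helper7.isCharacter_of_irr ψ₀.2), blKer_normal _, blKer_ne_top ψ₀.2 hψ₀,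
      fun u hu => hψ₀P u hu⟩

end Cfsg.Agent.Lib.Helper1
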