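import Mathlib
import Cfsg.Agent.Lib.Helper1.BLj

/-! Brauer--Leonard: faithful characters. -/

set_option autoImplicit false
set_option linter.style.haveILetI false

namespace Cfsg.Agent.Lib.Helper1

open Cfsg Cfsg.Agent.Lib.Helper25
open scoped ComplexConjugate

universe u

theorem bl_faithful_aux (p : ℕ) (hp : p.Prime) (n : ℕ) : ∀ (k : ℕ) (G : Type u) [Group G] [Finite G],
    Nat.card G = k → ∀ (P : Sylow p G),
    (∀ x ∈ (P : Subgroup G), x ≠ 1 → Subgroup.centralizer ({x} : Set G) =
      Subgroup.centralizer ((P : Subgroup G) : Set G)) → Nat.card P = p ^ n →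
    ∀ χ : G → ℂ, Cfsg.IsCharacter G χ → (∀ g : G, χ g = χ 1 → g = 1) →
    Cfsg.charDegree χ ^ 2 + 1 < p ^ n → (P : Subgroup G).Normal := by
  intro k
  induction k using Nat.strong_induction_on with
  | _ k ih =>
  intro G _ _ hk P hstar hn χ hχ hfaith hdeg
  classical
  haveI : Fact p.Prime := ⟨hp⟩
  cases nonempty_fintype G
  have : Finite (IrrCharacter G) := Helper2.finite_irrCharacter
  let _ : Fintype (IrrCharacter G) := Fintype.ofFinite _
  have hn' : Nat.card (P : Subgroup G) = p ^ n := hn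
  have hn0 : n ≠ 0 := by
    rintro rfl
    simp at hdeg
  have hpP : p ∣ Nat.card (P : Subgroup G) := by rw [hn']; exact dvd_pow_self p hn0
  have hpG : p ∣ Nat.card G := hpP.trans (Subgroup.card_subgroup_dvd_card _)
  have hPC := bl_abelian hp hpG P hstar
  obtain ⟨d, hd⟩ := Helper7.isCharacter_apply_one hχ
  have hcd : charDegree χ = d := charDegree_eq hd
  rw [hcd] at hdeg
  obtain ⟨m, hm, hsum⟩ := Helper7.character_eq_sum_nat hχ
  have hχg : ∀ g, χ g = ∑ ψ : IrrCharacter G, (m ψ : ℂ) * (ψ : G → ℂ) g := by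
    intro g
    have := congrFun hsum g
    simp only [Finset.sum_apply, Pi.smul_apply, nsmul_eq_mul] at this
    exact this
  have hne : (P : Subgroup G) ≠ ⊥ := P.ne_bot_of_dvd_card hpG
  obtain ⟨u, hu, hu1⟩ := (Subgroup.ne_bot_iff_exists_ne_one).1 hne |>.elim
    (fun x hx => (⟨(x : G), x.2, fun h => hx (Subtype.ext h)⟩ :
      ∃ u : G, u ∈ (P : Subgroup G) ∧ u ≠ 1))
  obtain ⟨χ₁, hmχ₁, hχ₁u⟩ : ∃ χ₁ : IrrCharacter G, m χ₁ ≠ 0 ∧
      (χ₁ : G → ℂ) u ≠ (χ₁ : G → ℂ) 1 := by
    by_contra hcon
    push Not at hcon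
    apply hu1
    apply hfaith
    rw [hχg u, hχg 1]
    apply Finset.sum_congr rfl
    intro ψ _
    by_cases h0 : m ψ = 0
    · simp [h0]
    · rw [hcon ψ h0]
  have hχ₁1 : (χ₁ : G → ℂ) ≠ fun _ => 1 := by
    intro h
    apply hχ₁u
    rw [h]
  have hdsum : d = ∑ ψ : IrrCharacter G, m ψ * ideg ψ := by
    have h1 := hχg 1
    simp only [ideg_spec, hd] at h1
    exact_mod_cast h1
  have hle : ideg χ₁ ≤ d := by
    rw [hdsum]
    refine le_trans ?_ (Finset.single_le_sum (f := fun η => m η * ideg η)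
      (fun _ _ => Nat.zero_le _) (Finset.mem_univ χ₁))
    exact Nat.le_mul_of_pos_left _ (Nat.pos_of_ne_zero hmχ₁)
  have hcd₁ : charDegree (χ₁ : G → ℂ) = ideg χ₁ := charDegree_eq (ideg_spec χ₁)
  have hdeg₁ : charDegree (χ₁ : G → ℂ) ^ 2 + 1 < p ^ n := by
    rw [hcd₁]
    exact lt_of_le_of_lt (Nat.add_le_add_right (Nat.pow_le_pow_left hle 2) 1) hdeg
  rcases bl_main p hp hpG P hstar n hn χ₁ hχ₁1 hdeg₁ with ⟨K, hKn, hKtop, hPK⟩ | ⟨⟨K₀, hK₀n, hK₀i⟩, -⟩
  · -- induction
    have hlt : Nat.card K < k := by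
      rw [← hk]
      by_contra hcon
      push Not at hcon
      exact hKtop (Subgroup.eq_top_of_le_card K hcon)
    have hcardP' : Nat.card ((P.subtype hPK : Sylow p K) : Subgroup K) = p ^ n := by
      rw [Sylow.coe_subtype, ← hn']
      exact Nat.card_congr (Subgroup.subgroupOfEquivOfLe hPK).toEquiv
    have hnorm := ih (Nat.card K) hlt K rfl (P.subtype hPK) (by
      intro x hx hx1
      have hx' : (x : G) ∈ (P : Subgroup G) := hx
      have hx1' : (x : G) ≠ 1 := fun h => hx1 (Subtype.ext h)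
      have hs := hstar x hx' hx1'
      ext y
      rw [Subgroup.mem_centralizer_singleton_iff, Subgroup.mem_centralizer_iff]
      constructor
      · intro h w hw
        have hw' : (w : G) ∈ (P : Subgroup G) := hw
        have h1 : (y : G) ∈ Subgroup.centralizer ({(x : G)} : Set G) :=
          Subgroup.mem_centralizer_singleton_iff.2 (congrArg Subtype.val h)
        rw [hs] at h1
        exact Subtype.ext (Subgroup.mem_centralizer_iff.1 h1 w hw')
      · intro h
        exact (h x hx).symm) hcardP' (fun y : K => χ y) (Helper7.isCharacter_restrict hχ K) (by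
      intro y hy
      exact Subtype.ext (hfaith y hy)) (by
      have : charDegree (fun y : K => χ y) = d := charDegree_eq (by simpa using hd)
      rw [this]; exact hdeg)
    haveI := Sylow.characteristic_of_normal (P.subtype hPK) hnorm
    have h2 : (((P.subtype hPK : Sylow p K) : Subgroup K).map K.subtype).Normal := inferInstance
    rw [Sylow.coe_subtype, Subgroup.map_subgroupOf_eq_of_le hPK] at h2
    exact h2
  · -- normal complement
    have h1 := Subgroup.card_mul_index K₀
    have h2 := Subgroup.card_mul_index (P : Subgroup G)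
    rw [hK₀i] at h1
    rw [hn'] at h2
    have h3 : Nat.card K₀ = (P : Subgroup G).index := by
      have : p ^ n * Nat.card K₀ = p ^ n * (P : Subgroup G).index := by
        rw [h2, ← h1, mul_comm]
      exact Nat.eq_of_mul_eq_mul_left (pow_pos hp.pos n) this
    have hcop : (Nat.card K₀).Coprime p := by
      rw [h3]
      exact (Nat.Coprime.symm ((Nat.Prime.coprime_iff_not_dvd hp).2 P.not_dvd_index))
    have hsup : K₀ ⊔ (P : Subgroup G) = ⊤ := by
      apply Subgroup.IsComplement'.sup_eq_top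
      apply Subgroup.isComplement'_of_coprime
      · rw [hn', h1]
      · rw [hn']; exact Nat.Coprime.pow_right n hcop
    have hc := ti_core K₀ (P : Subgroup G) hp hsup hcop P.2 (by
      intro u hu hu1 k _ hku v hv
      have h1 : k ∈ Subgroup.centralizer ({u} : Set G) :=
        Subgroup.mem_centralizer_singleton_iff.2 hku
      rw [hstar u hu hu1] at h1
      exact (Subgroup.mem_centralizer_iff.1 h1 v hv).symm) hχ (fun k _ h => hfaith k h) d hd
      (by rw [hn']; omega)
    refine ⟨?_⟩
    intro w hw g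
    have hg : g ∈ K₀ ⊔ (P : Subgroup G) := by rw [hsup]; trivial
    rw [← SetLike.mem_coe, Subgroup.normal_mul] at hg
    obtain ⟨k, hk, v, hv, rfl⟩ := Set.mem_mul.1 hg
    have e1 : w * v = v * w := Subgroup.mem_centralizer_iff.1 (hPC hv) w hw
    have e2 : w * k = k * w := hc w hw k hk
    have : k * v * w * (k * v)⁻¹ = w := by
      calc k * v * w * (k * v)⁻¹ = k * (v * w) * v⁻¹ * k⁻¹ := by group
        _ = k * (w * v) * v⁻¹ * k⁻¹ := by rw [e1]
        _ = (k * w) * k⁻¹ := by group
        _ = (w * k) * k⁻¹ := by rw [e2]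
        _ = w := by group
    rw [this]
    exact hw

end Cfsg.Agent.Lib.Helper1
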