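import Mathlib
import Cfsg.Agent.S0058
import Cfsg.Agent.Lib.Helper4.Factor
import Cfsg.Agent.Lib.Helper1.CoprimeSylow

set_option autoImplicit false

namespace Cfsg.Agent.Lib.Helper1

open Subgroup MulAction Pointwise
open scoped commutatorElement

variable {G : Type*} [Group G]

theorem fa_eq_mul_of_coprime [Finite G] (L U V S : Subgroup G)
    (hL : (L : Set G) = (U : Set G) * (V : Set G)) (hS : S ≤ L)
    (h1 : (Nat.card S).Coprime (S.relIndex U)) (h2 : (Nat.card S).Coprime (S.relIndex V)) :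
    (S : Set G) = ((S ⊓ U : Subgroup G) : Set G) * ((S ⊓ V : Subgroup G) : Set G) := by
  apply Helper4.eq_mul_of_card_le inf_le_left inf_le_left
  have e1 : Nat.card L * Nat.card (U ⊓ V : Subgroup G) = Nat.card U * Nat.card V := by
    rw [← Helper4.card_mul_set U V, ← hL]; rfl
  have e2 := Helper4.card_mul_set (S ⊓ U) (S ⊓ V)
  have e3 := Helper4.card_inf_mul_relIndex S U
  have e4 := Helper4.card_inf_mul_relIndex S V
  have d1 : Nat.card S ∣ Nat.card L := card_dvd_of_le hS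
  have d2 : Nat.card ((S ⊓ U) ⊓ (S ⊓ V) : Subgroup G) ∣ Nat.card (U ⊓ V : Subgroup G) :=
    card_dvd_of_le (inf_le_inf inf_le_right inf_le_right)
  have d3 : Nat.card ((S ⊓ U) ⊓ (S ⊓ V) : Subgroup G) ∣ Nat.card S :=
    card_dvd_of_le (inf_le_left.trans inf_le_left)
  have c1 : (Nat.card S * Nat.card ((S ⊓ U) ⊓ (S ⊓ V) : Subgroup G)).Coprime
      (S.relIndex U * S.relIndex V) := by
    apply Nat.Coprime.mul_left
    · exact Nat.Coprime.mul_right h1 h2
    · exact Nat.Coprime.coprime_dvd_left d3 (Nat.Coprime.mul_right h1 h2)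
  have d4 : Nat.card S * Nat.card ((S ⊓ U) ⊓ (S ⊓ V) : Subgroup G) ∣
      (Nat.card (S ⊓ U : Subgroup G) * Nat.card (S ⊓ V : Subgroup G)) *
        (S.relIndex U * S.relIndex V) := by
    have : (Nat.card (S ⊓ U : Subgroup G) * Nat.card (S ⊓ V : Subgroup G)) *
        (S.relIndex U * S.relIndex V) = Nat.card L * Nat.card (U ⊓ V : Subgroup G) := by
      rw [e1, ← e3, ← e4]; ring
    rw [this]
    exact Nat.mul_dvd_mul d1 d2
  have d5 := c1.dvd_of_dvd_mul_right d4
  rw [← e2] at d5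
  have d6 := Nat.dvd_of_mul_dvd_mul_right Nat.card_pos d5
  apply Nat.le_of_dvd _ d6
  have : Nonempty ((((S ⊓ U : Subgroup G) : Set G) * ((S ⊓ V : Subgroup G) : Set G) : Set G)) :=
    ⟨⟨1 * 1, Set.mul_mem_mul (one_mem _) (one_mem _)⟩⟩
  exact Nat.card_pos

theorem fa_qgroup [Finite G] {q : ℕ} [Fact q.Prime] (A R X Y : Subgroup G)
    [IsMulCommutative A] (hA : ¬ IsCyclic A) (hR : IsPGroup q R)
    (hAR : A ≤ normalizer (R : Set G)) (hcop : (Nat.card A).Coprime (Nat.card R))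
    (hY : Y ≤ R)
    (hfac : ∀ a ∈ A, a ≠ 1 → ∀ c ∈ R ⊓ centralizer {a}, ∃ x ∈ X, ∃ y ∈ Y, c = x * y) :
    ∀ r ∈ R, ∃ x ∈ X, ∃ y ∈ Y, r = x * y := by
  have key : ∀ (n : ℕ) (M : Subgroup G), Nat.card M = n → M ≤ R → R ≤ normalizer (M : Set G) →
      A ≤ normalizer (M : Set G) → (∀ r ∈ R, ∃ x ∈ X, ∃ y ∈ Y, ∃ m ∈ M, r = x * y * m) →
      ∀ r ∈ R, ∃ x ∈ X, ∃ y ∈ Y, r = x * y := by
    intro n
    induction n using Nat.strong_induction_on with
    | _ n ih =>
    intro M hn hMR hRM hAM hP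
    by_cases hM : M = ⊥
    · intro r hr
      obtain ⟨x, hx, y, hy, m, hm, rfl⟩ := hP r hr
      rw [hM, mem_bot] at hm
      exact ⟨x, hx, y, hy, by rw [hm, mul_one]⟩
    set M₁ := ⁅M, R⁆ with hM₁
    have hlt : M₁ < M := commutator_lt_of_isPGroup (hR.to_le hMR) hR hRM hM
    have hRM₁ : R ≤ normalizer (M₁ : Set G) := le_normalizer_commutator hRM le_normalizer
    have hAM₁ : A ≤ normalizer (M₁ : Set G) := le_normalizer_commutator hAM hAR
    apply ih (Nat.card M₁) (by rw [← hn]; exact card_lt_of_lt hlt) M₁ rfl (hlt.le.trans hMR)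
      hRM₁ hAM₁
    let T : Set G := {t | ∃ x ∈ X, ∃ y ∈ Y, ∃ m ∈ M₁, t = x * y * m}
    have step : ∀ a ∈ A, a ≠ 1 → ∀ c ∈ M ⊓ centralizer {a}, ∀ t ∈ T, t * c ∈ T := by
      rintro a ha ha1 c hc _ ⟨x, hx, y, hy, m, hm, rfl⟩
      have hcM : c ∈ M := (mem_inf.mp hc).1
      have hcR : c ∈ R := hMR hcM
      obtain ⟨x₁, hx₁, y₁, hy₁, hc1⟩ := hfac a ha ha1 c (mem_inf.mpr ⟨hcR, (mem_inf.mp hc).2⟩)
      refine ⟨x * x₁, X.mul_mem hx hx₁, y₁ * y, Y.mul_mem hy₁ hy,
        ⁅y⁻¹, c⁻¹⁆ * (c⁻¹ * m * c⁻¹⁻¹), M₁.mul_mem ?_ ?_, ?_⟩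
      · rw [hM₁, commutator_comm]
        exact commutator_mem_commutator (R.inv_mem (hY hy)) (M.inv_mem hcM)
      · exact le_normalizer_iff.mp hRM₁ c⁻¹ (R.inv_mem hcR) m hm
      · have e : x * x₁ * (y₁ * y) = x * c * y := by rw [hc1]; group
        rw [e, commutatorElement_def]
        group
    let W : Subgroup G :=
      { carrier := {g | ∀ t ∈ T, t * g ∈ T ∧ t * g⁻¹ ∈ T}
        one_mem' := by
          intro t ht
          simpa using ht
        mul_mem' := by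
          intro g h hg hh t ht
          constructor
          · rw [← mul_assoc]; exact (hh _ (hg t ht).1).1
          · rw [mul_inv_rev, ← mul_assoc]; exact (hg _ (hh t ht).2).2
        inv_mem' := by
          intro g hg t ht
          rw [inv_inv]
          exact ⟨(hg t ht).2, (hg t ht).1⟩ }
    have hW : M ≤ W := by
      have hgen := Cfsg.Agent.S0058.result A M hA hAM
        (hcop.coprime_dvd_right (card_dvd_of_le hMR))
      rw [← hgen]
      apply iSup₂_le
      intro a ha c hc t ht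
      exact ⟨step a ha.1 ha.2 c hc t ht, step a ha.1 ha.2 c⁻¹ (inv_mem hc) t ht⟩
    intro r hr
    obtain ⟨x, hx, y, hy, m, hm, rfl⟩ := hP r hr
    have h0 : x * y * 1 ∈ T := ⟨x, hx, y, hy, 1, one_mem _, rfl⟩
    have h1 := (hW hm _ h0).1
    rw [mul_one] at h1
    exact h1
  exact key _ R rfl le_rfl le_normalizer hAR
    (fun r hr => ⟨1, one_mem _, 1, one_mem _, r, hr, by simp⟩)

theorem fa_exists_syl [Finite G] (A K U : Subgroup G) (hAK : A ≤ normalizer (K : Set G))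
    (hcop : (Nat.card A).Coprime (Nat.card K)) (hsolv : Group.IsSolvable A) (q : ℕ)
    [Fact q.Prime] (hUK : U ≤ K) (hU : IsPGroup q U) (hAU : A ≤ normalizer (U : Set G)) :
    ∃ R : Subgroup G, U ≤ R ∧ R ≤ K ∧ IsPGroup q R ∧ ¬ q ∣ R.relIndex K ∧
      A ≤ normalizer (R : Set G) := by
  obtain ⟨P, hP1, hP2⟩ := invariant_sylow_ge A K hAK hcop (Or.inl hsolv) q _ U rfl hUK hU hAU
  refine ⟨(P : Subgroup K).map K.subtype, hP1, map_subtype_le _, P.2.map _, ?_, hP2⟩
  have h4 : ((P : Subgroup K).map K.subtype).relIndex K = (P : Subgroup K).index := by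
    change (comap K.subtype ((P : Subgroup K).map K.subtype)).index = _
    rw [comap_map_eq_self_of_injective K.subtype_injective]
  rw [h4]
  exact P.not_dvd_index

theorem fa_syl_conj [Finite G] (A K : Subgroup G) (hAK : A ≤ normalizer (K : Set G))
    (hcop : (Nat.card A).Coprime (Nat.card K)) (hsolv : Group.IsSolvable A) (q : ℕ)
    [Fact q.Prime] (R₁ R₂ : Subgroup G)
    (h1K : R₁ ≤ K) (h1 : IsPGroup q R₁) (h1i : ¬ q ∣ R₁.relIndex K)
    (h1A : A ≤ normalizer (R₁ : Set G))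
    (h2K : R₂ ≤ K) (h2 : IsPGroup q R₂) (h2i : ¬ q ∣ R₂.relIndex K)
    (h2A : A ≤ normalizer (R₂ : Set G)) :
    ∃ c ∈ K ⊓ centralizer (A : Set G), ∀ x ∈ R₁, c * x * c⁻¹ ∈ R₂ := by
  let P₁ : Sylow q K := IsPGroup.toSylow (P := R₁.subgroupOf K) h1.comap_subtype h1i
  let P₂ : Sylow q K := IsPGroup.toSylow (P := R₂.subgroupOf K) h2.comap_subtype h2i
  obtain ⟨c, hc1, hc2⟩ := (invariant_sylow A K hAK hcop (Or.inl hsolv) q).2 P₁ P₂
    (by
      change A ≤ normalizer (((R₁.subgroupOf K).map K.subtype : Subgroup G) : Set G)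
      rw [map_subgroupOf_eq_of_le h1K]; exact h1A)
    (by
      change A ≤ normalizer (((R₂.subgroupOf K).map K.subtype : Subgroup G) : Set G)
      rw [map_subgroupOf_eq_of_le h2K]; exact h2A)
  refine ⟨c, mem_inf.mpr ⟨c.2, hc1⟩, fun x hx => ?_⟩
  have h3 : c * ⟨x, h1K hx⟩ * c⁻¹ ∈ (MulAut.conj c • (P₁ : Subgroup K) : Subgroup K) :=
    conj_mem_conj_smul (show (⟨x, h1K hx⟩ : K) ∈ R₁.subgroupOf K from mem_subgroupOf.mpr hx)
  have h4 : (MulAut.conj c • (P₁ : Subgroup K) : Subgroup K) = (P₂ : Subgroup K) :=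
    congrArg (fun Q : Sylow q K => (Q : Subgroup K)) hc2
  rw [h4] at h3
  exact mem_subgroupOf.mp (show _ ∈ R₂.subgroupOf K from h3)

theorem fa_syl_of_card_le [Finite G] {q : ℕ} [Fact q.Prime] {S T L : Subgroup G}
    (hSL : S ≤ L) (hS : IsPGroup q S) (hSi : ¬ q ∣ S.relIndex L)
    (hTL : T ≤ L) (hT : IsPGroup q T) (hle : Nat.card S ≤ Nat.card T) :
    ¬ q ∣ T.relIndex L := by
  have hq : q.Prime := Fact.out
  obtain ⟨i, hi⟩ := IsPGroup.iff_card.mp hS
  obtain ⟨j, hj⟩ := IsPGroup.iff_card.mp hT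
  have e1 := relIndex_mul_relIndex ⊥ S L bot_le hSL
  have e2 := relIndex_mul_relIndex ⊥ T L bot_le hTL
  rw [relIndex_bot_left, relIndex_bot_left] at e1 e2
  rw [hi] at e1
  rw [hj] at e2
  rw [hi, hj] at hle
  have hij : i ≤ j := (Nat.pow_le_pow_iff_right hq.one_lt).mp hle
  obtain ⟨d, rfl⟩ := Nat.exists_eq_add_of_le hij
  intro hdvd
  apply hSi
  have e3 : q ^ i * S.relIndex L = q ^ i * (q ^ d * T.relIndex L) := by
    rw [e1, ← e2, pow_add]; ring
  have e4 := Nat.eq_of_mul_eq_mul_left (pow_pos hq.pos i) e3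
  rw [e4]
  exact hdvd.mul_left _

theorem fa_card_syl [Finite G] {q : ℕ} [Fact q.Prime] {S L : Subgroup G}
    (hSL : S ≤ L) (hS : IsPGroup q S) (hSi : ¬ q ∣ S.relIndex L) :
    Nat.card S = q ^ (Nat.card L).factorization q := by
  have hq : q.Prime := Fact.out
  obtain ⟨i, hi⟩ := IsPGroup.iff_card.mp hS
  have e1 := relIndex_mul_relIndex ⊥ S L bot_le hSL
  rw [relIndex_bot_left, relIndex_bot_left, hi] at e1
  have h0 : S.relIndex L ≠ 0 := index_ne_zero_of_finite
  rw [← e1, Nat.factorization_mul (pow_ne_zero _ hq.ne_zero) h0, hi]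
  simp [hq.factorization_pow, Nat.factorization_eq_zero_of_not_dvd hSi]

theorem fa_conj_le_card [Finite G] {c : G} {S T : Subgroup G}
    (h : ∀ x ∈ S, c * x * c⁻¹ ∈ T) : Nat.card S ≤ Nat.card T := by
  rw [← card_conj_smul c S]
  exact Nat.le_of_dvd Nat.card_pos (card_dvd_of_le (conj_smul_le_of_forall h))

theorem fa_cent_syl [Finite G] (A L S : Subgroup G) [IsMulCommutative A]
    (hAL : A ≤ normalizer (L : Set G))
    (hcop : (Nat.card A).Coprime (Nat.card L)) (hsolv : Group.IsSolvable A) (q : ℕ)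
    [Fact q.Prime] (hSL : S ≤ L) (hS : IsPGroup q S) (hSi : ¬ q ∣ S.relIndex L)
    (hAS : A ≤ normalizer (S : Set G)) (a : G) (ha : a ∈ A) :
    ¬ q ∣ (S ⊓ centralizer {a}).relIndex (L ⊓ centralizer {a}) := by
  have hAc : A ≤ centralizer ({a} : Set G) := by
    intro b hb
    rw [mem_centralizer_singleton_iff]
    have := (inferInstance : IsMulCommutative A).is_comm.comm (⟨b, hb⟩ : A) ⟨a, ha⟩
    exact congrArg Subtype.val this
  have hACa : A ≤ normalizer ((L ⊓ centralizer {a} : Subgroup G) : Set G) :=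
    (le_inf hAL (hAc.trans le_normalizer)).trans inf_normalizer_le_normalizer_inf
  obtain ⟨S₀, -, h0L, h0, h0i, h0A⟩ := fa_exists_syl A (L ⊓ centralizer {a}) ⊥ hACa
    (hcop.coprime_dvd_right (card_dvd_of_le inf_le_left)) hsolv q bot_le
    (IsPGroup.of_bot) (by
      intro x _
      rw [mem_normalizer_iff]
      intro h
      simp)
  obtain ⟨R', h0R, hR'L, hR', hR'i, hR'A⟩ := fa_exists_syl A L S₀ hAL hcop hsolv q
    (h0L.trans inf_le_left) h0 h0A
  obtain ⟨c, hc, hcx⟩ := fa_syl_conj A L hAL hcop hsolv q R' S hR'L hR' hR'i hR'A hSL hS hSi hAS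
  have hca : c ∈ centralizer ({a} : Set G) :=
    centralizer_le (Set.singleton_subset_iff.mpr ha) (mem_inf.mp hc).2
  apply fa_syl_of_card_le h0L h0 h0i (inf_le_inf_right _ hSL) (hS.to_le inf_le_left)
  apply fa_conj_le_card (c := c)
  intro x hx
  exact mem_inf.mpr ⟨hcx x (h0R hx),
    mul_mem (mul_mem hca (mem_inf.mp (h0L hx)).2) (inv_mem hca)⟩

theorem fa_main [Finite G] (A K X Y : Subgroup G) [IsMulCommutative A]
    (hAnc : ¬ IsCyclic A) (hsolv : Group.IsSolvable A)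
    (hcop : (Nat.card A).Coprime (Nat.card K))
    (hAK : A ≤ normalizer (K : Set G)) (hX : X ≤ K) (hY : Y ≤ K)
    (hAX : A ≤ normalizer (X : Set G)) (hAY : A ≤ normalizer (Y : Set G))
    (hCX : K ⊓ centralizer (A : Set G) ≤ normalizer (X : Set G))
    (hfac : ∀ a ∈ A, a ≠ 1 → ((K ⊓ centralizer {a} : Subgroup G) : Set G) =
      ((X ⊓ centralizer {a} : Subgroup G) : Set G) *
        ((Y ⊓ centralizer {a} : Subgroup G) : Set G)) :
    (K : Set G) = (X : Set G) * (Y : Set G) := by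
  have hcopX := hcop.coprime_dvd_right (card_dvd_of_le hX)
  have hcopY := hcop.coprime_dvd_right (card_dvd_of_le hY)
  have hAD : A ≤ normalizer ((X ⊓ Y : Subgroup G) : Set G) :=
    (le_inf hAX hAY).trans inf_normalizer_le_normalizer_inf
  have hbot : A ≤ normalizer ((⊥ : Subgroup G) : Set G) := by
    intro x _
    rw [mem_normalizer_iff]
    intro h
    simp
  have key : ∀ q : ℕ, q.Prime → (Nat.card K).factorization q +
      (Nat.card (X ⊓ Y : Subgroup G)).factorization q =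
      (Nat.card X).factorization q + (Nat.card Y).factorization q := by
    intro q hq
    haveI := Fact.mk hq
    obtain ⟨D₀, -, hD0, hD0p, hD0i, hD0A⟩ := fa_exists_syl A (X ⊓ Y) ⊥ hAD
      (hcopX.coprime_dvd_right (card_dvd_of_le inf_le_left)) hsolv q bot_le IsPGroup.of_bot hbot
    obtain ⟨QY, hDQ, hQY, hQYp, hQYi, hQYA⟩ := fa_exists_syl A Y D₀ hAY hcopY hsolv q
      (hD0.trans inf_le_right) hD0p hD0A
    obtain ⟨R, hQR, hRK, hRp, hRi, hRA⟩ := fa_exists_syl A K QY hAK hcop hsolv q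
      (hQY.trans hY) hQYp hQYA
    have hRY : ¬ q ∣ (R ⊓ Y).relIndex Y :=
      fa_syl_of_card_le hQY hQYp hQYi inf_le_right (hRp.to_le inf_le_left)
        (Nat.le_of_dvd Nat.card_pos (card_dvd_of_le (le_inf hQR hQY)))
    have hRD : ¬ q ∣ (R ⊓ (X ⊓ Y)).relIndex (X ⊓ Y) :=
      fa_syl_of_card_le hD0 hD0p hD0i inf_le_right (hRp.to_le inf_le_left)
        (Nat.le_of_dvd Nat.card_pos (card_dvd_of_le (le_inf (hDQ.trans hQR) hD0)))
    have hRX : ¬ q ∣ (R ⊓ X).relIndex X := by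
      obtain ⟨QX, -, hQX, hQXp, hQXi, hQXA⟩ := fa_exists_syl A X ⊥ hAX hcopX hsolv q bot_le
        IsPGroup.of_bot hbot
      obtain ⟨R', hQR', hR'K, hR'p, hR'i, hR'A⟩ := fa_exists_syl A K QX hAK hcop hsolv q
        (hQX.trans hX) hQXp hQXA
      obtain ⟨c, hc, hcx⟩ := fa_syl_conj A K hAK hcop hsolv q R' R hR'K hR'p hR'i hR'A
        hRK hRp hRi hRA
      apply fa_syl_of_card_le hQX hQXp hQXi inf_le_right (hRp.to_le inf_le_left)
      apply fa_conj_le_card (c := c)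
      intro x hx
      exact mem_inf.mpr ⟨hcx x (hQR' hx), le_normalizer_iff.mp hCX c hc x (hQX hx)⟩
    have hARX : A ≤ normalizer ((R ⊓ X : Subgroup G) : Set G) :=
      (le_inf hRA hAX).trans inf_normalizer_le_normalizer_inf
    have hARY : A ≤ normalizer ((R ⊓ Y : Subgroup G) : Set G) :=
      (le_inf hRA hAY).trans inf_normalizer_le_normalizer_inf
    have hcopr : ∀ (a : G) (Z : Subgroup G),
        ¬ q ∣ ((R ⊓ Z) ⊓ centralizer {a}).relIndex (Z ⊓ centralizer {a}) →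
        (Nat.card (R ⊓ centralizer {a} : Subgroup G)).Coprime
          ((R ⊓ centralizer {a}).relIndex (Z ⊓ centralizer {a})) := by
      intro a Z h1
      have e : (R ⊓ centralizer {a}).relIndex (Z ⊓ centralizer {a}) =
          ((R ⊓ Z) ⊓ centralizer {a}).relIndex (Z ⊓ centralizer {a}) := by
        rw [← inf_relIndex_right (R ⊓ centralizer {a}) (Z ⊓ centralizer {a}),
          ← inf_inf_distrib_right]
      rw [e]
      obtain ⟨j, hj⟩ := IsPGroup.iff_card.mp
        (hRp.to_le (inf_le_left : R ⊓ centralizer {a} ≤ R))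
      rw [hj]
      exact Nat.Coprime.pow_left _ ((Nat.Prime.coprime_iff_not_dvd hq).mpr h1)
    have hprod : ∀ r ∈ R, ∃ x ∈ R ⊓ X, ∃ y ∈ R ⊓ Y, r = x * y := by
      apply fa_qgroup A R (R ⊓ X) (R ⊓ Y) hAnc hRp hRA
        (hcop.coprime_dvd_right (card_dvd_of_le hRK)) inf_le_left
      intro a ha ha1 c hc
      have hS := fa_eq_mul_of_coprime (K ⊓ centralizer {a}) (X ⊓ centralizer {a})
        (Y ⊓ centralizer {a}) (R ⊓ centralizer {a}) (hfac a ha ha1) (inf_le_inf_right _ hRK)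
        (hcopr a X (fa_cent_syl A X (R ⊓ X) hAX hcopX hsolv q inf_le_right
          (hRp.to_le inf_le_left) hRX hARX a ha))
        (hcopr a Y (fa_cent_syl A Y (R ⊓ Y) hAY hcopY hsolv q inf_le_right
          (hRp.to_le inf_le_left) hRY hARY a ha))
      have hc' : c ∈ ((R ⊓ centralizer {a} : Subgroup G) : Set G) := hc
      rw [hS] at hc'
      obtain ⟨x, hx, y, hy, rfl⟩ := hc'
      refine ⟨x, ?_, y, ?_, rfl⟩
      · exact mem_inf.mpr ⟨(mem_inf.mp (mem_inf.mp hx).1).1, (mem_inf.mp (mem_inf.mp hx).2).1⟩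
      · exact mem_inf.mpr ⟨(mem_inf.mp (mem_inf.mp hy).1).1, (mem_inf.mp (mem_inf.mp hy).2).1⟩
    have hset : (R : Set G) = ((R ⊓ X : Subgroup G) : Set G) * ((R ⊓ Y : Subgroup G) : Set G) := by
      apply Set.Subset.antisymm
      · intro r hr
        obtain ⟨x, hx, y, hy, rfl⟩ := hprod r hr
        exact Set.mul_mem_mul hx hy
      · exact Helper4.mul_subset_of_le inf_le_left inf_le_left
    have e := Helper4.card_mul_set (R ⊓ X) (R ⊓ Y)
    rw [← hset] at e
    have e' : Nat.card R * Nat.card (R ⊓ (X ⊓ Y) : Subgroup G) =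
        Nat.card (R ⊓ X : Subgroup G) * Nat.card (R ⊓ Y : Subgroup G) := by
      rw [inf_inf_distrib_left]; exact e
    rw [fa_card_syl hRK hRp hRi, fa_card_syl inf_le_right (hRp.to_le inf_le_left) hRD,
      fa_card_syl inf_le_right (hRp.to_le inf_le_left) hRX,
      fa_card_syl inf_le_right (hRp.to_le inf_le_left) hRY, ← pow_add, ← pow_add] at e'
    exact Nat.pow_right_injective hq.two_le e'
  have hcard : Nat.card K * Nat.card (X ⊓ Y : Subgroup G) = Nat.card X * Nat.card Y := by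
    apply Nat.eq_of_factorization_eq
      (Nat.mul_ne_zero Nat.card_pos.ne' Nat.card_pos.ne')
      (Nat.mul_ne_zero Nat.card_pos.ne' Nat.card_pos.ne')
    intro q
    by_cases hq : q.Prime
    · rw [Nat.factorization_mul Nat.card_pos.ne' Nat.card_pos.ne',
        Nat.factorization_mul Nat.card_pos.ne' Nat.card_pos.ne']
      exact key q hq
    · rw [Nat.factorization_eq_zero_of_not_prime _ hq, Nat.factorization_eq_zero_of_not_prime _ hq]
  apply Helper4.eq_mul_of_card_le hX hY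
  have e := Helper4.card_mul_set X Y
  rw [← hcard] at e
  exact (Nat.eq_of_mul_eq_mul_right Nat.card_pos e).ge

end Cfsg.Agent.Lib.Helper1
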