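import Mathlib
import Cfsg.Agent.Lib.Helper1.Hall
import Cfsg.Agent.Lib.Helper1.Glauberman
import Cfsg.Agent.Lib.Helper1.CoprimeSylow

set_option autoImplicit false

namespace Cfsg.Agent.Lib.Helper1

open Subgroup MulAction Pointwise

universe u

theorem conj_smul_eq_of_mem_normalizer {X : Type*} [Group X] {H : Subgroup X} {a : X}
    (ha : a ∈ normalizer (H : Set X)) : MulAut.conj a • H = H := by
  ext x
  rw [mem_conj_smul]
  have := (mem_normalizer_iff.mp (inv_mem ha)) x
  rw [inv_inv] at this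
  exact this.symm

theorem mem_normalizer_of_conj_smul_eq {X : Type*} [Group X] {H : Subgroup X} {a : X}
    (ha : MulAut.conj a • H = H) : a ∈ normalizer (H : Set X) := by
  rw [mem_normalizer_iff]
  intro h
  conv_rhs => rw [← ha, mem_conj_smul]
  have : a⁻¹ * (a * h * a⁻¹) * a = h := by group
  rw [this]

/-- conjugation action of a subgroup normalising `G` on the subgroups of `G` of order `m` -/
@[reducible] def hallSetAct {X : Type*} [Group X] (G : Subgroup X) (m : ℕ) (B : Subgroup X)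
    (hB : B ≤ normalizer (G : Set X)) :
    MulAction B {H : Subgroup X // H ≤ G ∧ Nat.card H = m} where
  smul b H := ⟨MulAut.conj (b : X) • H.1, by
      have := conj_smul_eq_of_mem_normalizer (hB b.2)
      exact (pointwise_smul_le_pointwise_smul_iff.mpr H.2.1).trans this.le, by rw [card_conj_smul]; exact H.2.2⟩
  one_smul H := Subtype.ext (by change MulAut.conj ((1 : B) : X) • H.1 = H.1; simp)
  mul_smul a b H := Subtype.ext (by
      change MulAut.conj ((a * b : B) : X) • H.1 = MulAut.conj (a : X) • (MulAut.conj (b : X) • H.1)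
      rw [smul_smul, ← map_mul]; rfl)

theorem inv_hall_ab {X : Type u} [Group X] [Finite X] (A G : Subgroup X)
    (hAG : A ≤ normalizer (G : Set X)) (hcop : (Nat.card A).Coprime (Nat.card G))
    (hsolv : Group.IsSolvable G) (m n : ℕ) (hmn : Nat.card G = m * n) (hc : m.Coprime n) :
    (∃ H : Subgroup X, H ≤ G ∧ Nat.card H = m ∧ A ≤ normalizer (H : Set X)) ∧
    ∀ H₁ H₂ : Subgroup X, H₁ ≤ G → Nat.card H₁ = m → A ≤ normalizer (H₁ : Set X) →
      H₂ ≤ G → Nat.card H₂ = m → A ≤ normalizer (H₂ : Set X) →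
      ∃ c ∈ G ⊓ centralizer (A : Set X), MulAut.conj c • H₁ = H₂ := by
  haveI := hsolv
  letI iA := hallSetAct G m A hAG
  letI iG := hallSetAct G m G le_normalizer
  haveI : Nonempty {H : Subgroup X // H ≤ G ∧ Nat.card H = m} := by
    obtain ⟨H, hH⟩ := hall_exists _ G rfl m n hmn hc
    exact ⟨⟨H.map G.subtype, map_subtype_le H, by rw [card_map_subtype, hH]⟩⟩
  obtain ⟨⟨H, hH⟩, h2⟩ := glauberman_sub
    (X := {H : Subgroup X // H ≤ G ∧ Nat.card H = m}) A G hAG (by
      intro a g H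
      apply Subtype.ext
      change MulAut.conj (a : X) • (MulAut.conj (g : X) • H.1) =
        MulAut.conj ((conjHom A G hAG a g : G) : X) • (MulAut.conj (a : X) • H.1)
      rw [conjHom_apply_coe, smul_smul, smul_smul, ← map_mul, ← map_mul]
      congr 2
      group) hcop (Or.inr hsolv) (by
      intro H K
      obtain ⟨g, hg⟩ := hall_conj _ G rfl m n hmn hc (H.1.subgroupOf G) (K.1.subgroupOf G)
        (by rw [card_subgroupOf_of_le H.2.1, H.2.2]) (by rw [card_subgroupOf_of_le K.2.1, K.2.2])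
      refine ⟨g, Subtype.ext ?_⟩
      change MulAut.conj (g : X) • H.1 = K.1
      apply conj_smul_eq_of_forall (by rw [H.2.2, K.2.2])
      intro x hx
      exact mem_subgroupOf.mp (hg ⟨x, H.2.1 hx⟩ (mem_subgroupOf.mpr hx)))
  constructor
  · refine ⟨H.1, H.2.1, H.2.2, fun a ha => mem_normalizer_of_conj_smul_eq ?_⟩
    exact congrArg Subtype.val (hH ⟨a, ha⟩)
  · intro H₁ H₂ h1 h1c h1A h2' h2c h2A
    obtain ⟨c, hc1, hc2⟩ := h2 ⟨H₁, h1, h1c⟩ ⟨H₂, h2', h2c⟩
      (fun a => Subtype.ext (conj_smul_eq_of_mem_normalizer (h1A a.2)))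
      (fun a => Subtype.ext (conj_smul_eq_of_mem_normalizer (h2A a.2)))
    exact ⟨c, mem_inf.mpr ⟨c.2, hc1⟩, congrArg Subtype.val hc2⟩

theorem card_map_mk'_mul {Γ : Type*} [Group Γ] (P G : Subgroup Γ) [P.Normal]
    (hPG : P ≤ G) :
    Nat.card P * Nat.card (G.map (QuotientGroup.mk' P)) = Nat.card G := by
  rw [← card_comap_mk', comap_map_eq, QuotientGroup.ker_mk', sup_eq_left.mpr hPG]

theorem card_mul_relIndex_of_le {Γ : Type*} [Group Γ] {H K : Subgroup Γ} (h : H ≤ K) :
    Nat.card H * H.relIndex K = Nat.card K := by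
  have := relIndex_mul_relIndex ⊥ H K bot_le h
  rwa [relIndex_bot_left, relIndex_bot_left] at this

theorem inv_hall_ge_aux : ∀ (N : ℕ) (Γ : Type u) [Group Γ] [Finite Γ] (G A U : Subgroup Γ)
    [G.Normal],
    Nat.card G = N → Group.IsSolvable G → (Nat.card A).Coprime (Nat.card G) →
    ∀ m n : ℕ, N = m * n → m.Coprime n → U ≤ G → (Nat.card U).Coprime n →
    A ≤ normalizer (U : Set Γ) →
    ∃ H : Subgroup Γ, H ≤ G ∧ Nat.card H = m ∧ A ≤ normalizer (H : Set Γ) ∧ U ≤ H := by
  intro N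
  induction N using Nat.strong_induction_on with
  | _ N ih =>
  intro Γ _ _ G A U _ hN hsolv hcop m n hmn hc hUG hUn hAU
  haveI := hsolv
  rcases subsingleton_or_nontrivial G with hs | hnt
  · have h1 : Nat.card G = 1 := Nat.card_of_subsingleton 1
    have hG : G = ⊥ := card_eq_one.mp h1
    refine ⟨⊥, bot_le, ?_, ?_, ?_⟩
    · rw [card_bot]; rw [hN, hmn] at h1; exact (Nat.eq_one_of_mul_eq_one_right h1).symm
    · intro a _
      rw [mem_normalizer_iff]
      intro h
      simp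
    · rw [← hG]; exact hUG
  obtain ⟨p, hp, P', hchar, hpg', hne', -⟩ := exists_char_pSubgroup_of_solvable G
  haveI := Fact.mk hp
  haveI := hchar
  set P := P'.map G.subtype with hP
  haveI hPn : P.Normal := ConjAct.normal_of_characteristic_of_normal
  have hPG : P ≤ G := map_subtype_le P'
  have hpg : IsPGroup p P := hpg'.map _
  have hPne : P ≠ ⊥ := by
    rw [hP]; intro h; exact hne' ((map_eq_bot_iff_of_injective _ G.subtype_injective).mp h)
  have hP1 : 1 < Nat.card P := (one_lt_card_iff_ne_bot P).mpr hPne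
  obtain ⟨k, hk⟩ := IsPGroup.iff_card.mp hpg
  set q := QuotientGroup.mk' P with hq
  have hcardG : Nat.card P * Nat.card (G.map q) = Nat.card G := card_map_mk'_mul P G hPG
  have hlt : Nat.card (G.map q) < N := by
    rw [← hN, ← hcardG]
    have : 0 < Nat.card (G.map q) := Nat.card_pos
    nlinarith
  haveI : (G.map q).Normal := Normal.map inferInstance q (QuotientGroup.mk'_surjective P)
  have hsolv' : Group.IsSolvable (G.map q) :=
    Group.isSolvable_of_surjective (f := q.subgroupMap G) (q.subgroupMap_surjective G)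
  have hcop' : (Nat.card (A.map q)).Coprime (Nat.card (G.map q)) :=
    Nat.Coprime.coprime_dvd_left (card_map_dvd _ _)
      (Nat.Coprime.coprime_dvd_right (card_map_dvd _ _) hcop)
  have hUG' : U.map q ≤ G.map q := map_mono hUG
  have hAU' : A.map q ≤ normalizer ((U.map q : Subgroup (Γ ⧸ P)) : Set (Γ ⧸ P)) :=
    (map_mono hAU).trans (le_normalizer_map q)
  have hdvdP : Nat.card P ∣ m * n := by rw [← hmn, ← hN]; exact card_dvd_of_le hPG
  have pull : ∀ Hb : Subgroup (Γ ⧸ P), Hb ≤ G.map q → A.map q ≤ normalizer (Hb : Set (Γ ⧸ P)) →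
      U.map q ≤ Hb →
      Hb.comap q ≤ G ∧ A ≤ normalizer ((Hb.comap q : Subgroup Γ) : Set Γ) ∧ U ≤ Hb.comap q := by
    intro Hb h1 h2 h3
    refine ⟨?_, ?_, map_le_iff_le_comap.mp h3⟩
    · have := comap_mono (f := q) h1
      rwa [comap_map_eq, QuotientGroup.ker_mk', sup_eq_left.mpr hPG] at this
    · exact (map_le_iff_le_comap.mp h2).trans (le_normalizer_comap q)
  by_cases hpn : p ∣ n
  · have hPm : (Nat.card P).Coprime m := by
      rw [hk]; apply Nat.Coprime.pow_left
      rw [Nat.Prime.coprime_iff_not_dvd hp]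
      intro hpm
      exact hp.one_lt.ne' (Nat.eq_one_of_dvd_coprimes hc hpm hpn)
    obtain ⟨n', hn'⟩ : Nat.card P ∣ n := hPm.dvd_of_dvd_mul_left hdvdP
    have hcard' : Nat.card (G.map q) = m * n' := by
      have : Nat.card P * Nat.card (G.map q) = Nat.card P * (m * n') := by
        rw [hcardG, hN, hmn, hn']; ring
      exact Nat.eq_of_mul_eq_mul_left (by omega) this
    have hn'n : n' ∣ n := ⟨Nat.card P, by rw [hn']; ring⟩
    obtain ⟨Hb, hb1, hb2, hb3, hb4⟩ := ih _ hlt (Γ ⧸ P) (G.map q) (A.map q) (U.map q) rfl hsolv'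
      hcop' m n' hcard' (hc.coprime_dvd_right hn'n) hUG'
      ((hUn.coprime_dvd_left (card_map_dvd _ _)).coprime_dvd_right hn'n) hAU'
    obtain ⟨hLG, hAL, hUL⟩ := pull Hb hb1 hb3 hb4
    set L := Hb.comap q with hL
    have hLcard : Nat.card L = m * Nat.card P := by rw [hL, card_comap_mk', hb2]; ring
    have hPL : P ≤ L := le_comap_mk' P Hb
    obtain ⟨⟨K, hKL, hKc, hAK⟩, -⟩ := inv_hall_ab A L hAL
      (hcop.coprime_dvd_right (card_dvd_of_le hLG)) (isSolvable_of_le hLG hsolv) m (Nat.card P)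
      hLcard hPm.symm
    set W := P ⊔ U with hW
    have hWL : W ≤ L := sup_le hPL hUL
    have hPU : (Nat.card P).Coprime (Nat.card U) := (hUn.coprime_dvd_right ⟨n', hn'⟩).symm
    have hWcard : Nat.card W = Nat.card U * Nat.card P := by
      have h1 : P.relIndex (P ⊔ U) = Nat.card U := by
        rw [relIndex_sup_left,
          relIndex_eq_card_of_inf_eq_bot (disjoint_of_coprime_natCard hPU).eq_bot]
      have h2 := card_mul_relIndex_of_le (le_sup_left : P ≤ P ⊔ U)
      rw [h1] at h2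
      rw [hW, ← h2]; ring
    have hAW : A ≤ normalizer (W : Set Γ) :=
      (le_inf le_normalizer_of_normal hAU).trans (normalizer_inf_normalizer_le_normalizer_sup P U)
    have hAWK : A ≤ normalizer ((W ⊓ K : Subgroup Γ) : Set Γ) :=
      (le_inf hAW hAK).trans inf_normalizer_le_normalizer_inf
    have hWKcard : Nat.card (W ⊓ K : Subgroup Γ) = Nat.card U := by
      apply Nat.le_antisymm
      · apply Nat.le_of_dvd Nat.card_pos
        have h1 : Nat.card (W ⊓ K : Subgroup Γ) ∣ Nat.card U * Nat.card P := by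
          rw [← hWcard]; exact card_dvd_of_le inf_le_left
        have h2 : (Nat.card (W ⊓ K : Subgroup Γ)).Coprime (Nat.card P) := by
          apply Nat.Coprime.coprime_dvd_left (card_dvd_of_le inf_le_right)
          rw [hKc]; exact hPm.symm
        exact h2.dvd_of_dvd_mul_right h1
      · have h1 := card_mul_relIndex_of_le (inf_le_left : W ⊓ K ≤ W)
        rw [inf_relIndex_left] at h1
        have h2 : K.relIndex W ≤ K.relIndex L := relIndex_le_of_le_right hWL index_ne_zero_of_finite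
        have h3 := card_mul_relIndex_of_le hKL
        rw [hKc, hLcard] at h3
        have hm : 0 < m := by
          rcases Nat.eq_zero_or_pos m with h | h
          · rw [h] at hKc; exact absurd hKc Nat.card_pos.ne'
          · exact h
        have h4 : K.relIndex L = Nat.card P := Nat.eq_of_mul_eq_mul_left hm h3
        rw [h4] at h2
        rw [hWcard] at h1
        have h5 : Nat.card U * Nat.card P ≤ Nat.card (W ⊓ K : Subgroup Γ) * Nat.card P := by
          rw [← h1]; exact Nat.mul_le_mul_left _ h2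
        exact Nat.le_of_mul_le_mul_right h5 (by omega)
    obtain ⟨c, hc1, hc2⟩ := (inv_hall_ab A W hAW
      (hcop.coprime_dvd_right (card_dvd_of_le (hWL.trans hLG)))
      (isSolvable_of_le (hWL.trans hLG) hsolv) (Nat.card U) (Nat.card P) hWcard hPU.symm).2
      (W ⊓ K) U inf_le_left hWKcard hAWK le_sup_right rfl hAU
    have hcG : c ∈ G := hLG (hWL (mem_inf.mp hc1).1)
    have hcA := mem_centralizer_iff.mp (mem_inf.mp hc1).2
    refine ⟨MulAut.conj c • K, ?_, by rw [card_conj_smul, hKc], ?_, ?_⟩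
    · apply conj_smul_le_of_forall
      intro x hx
      exact G.mul_mem (G.mul_mem hcG (hLG (hKL hx))) (G.inv_mem hcG)
    · rw [le_normalizer_iff]
      intro a ha x hx
      rw [mem_conj_smul] at hx ⊢
      have h1 := (le_normalizer_iff.mp hAK) a ha _ hx
      have h2 : c⁻¹ * (a * x * a⁻¹) * c = a * (c⁻¹ * x * c) * a⁻¹ := by
        have e1 : a * c = c * a := hcA a ha
        have e2 : c⁻¹ * a = a * c⁻¹ := by
          calc c⁻¹ * a = c⁻¹ * (a * c) * c⁻¹ := by group
            _ = c⁻¹ * (c * a) * c⁻¹ := by rw [e1]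
            _ = a * c⁻¹ := by group
        have e3 : a⁻¹ * c = c * a⁻¹ := by
          calc a⁻¹ * c = a⁻¹ * (c * a) * a⁻¹ := by group
            _ = a⁻¹ * (a * c) * a⁻¹ := by rw [e1]
            _ = c * a⁻¹ := by group
        calc c⁻¹ * (a * x * a⁻¹) * c = (c⁻¹ * a) * x * (a⁻¹ * c) := by group
          _ = (a * c⁻¹) * x * (c * a⁻¹) := by rw [e2, e3]
          _ = a * (c⁻¹ * x * c) * a⁻¹ := by group
      rw [h2]; exact h1
    · rw [← hc2]
      exact pointwise_smul_le_pointwise_smul_iff.mpr inf_le_right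
  · have hPn' : (Nat.card P).Coprime n := by
      rw [hk]; apply Nat.Coprime.pow_left
      rwa [Nat.Prime.coprime_iff_not_dvd hp]
    obtain ⟨m', hm'⟩ : Nat.card P ∣ m := hPn'.dvd_of_dvd_mul_right hdvdP
    have hcard' : Nat.card (G.map q) = m' * n := by
      have : Nat.card P * Nat.card (G.map q) = Nat.card P * (m' * n) := by
        rw [hcardG, hN, hmn, hm']; ring
      exact Nat.eq_of_mul_eq_mul_left (by omega) this
    have hm'm : m' ∣ m := ⟨Nat.card P, by rw [hm']; ring⟩
    obtain ⟨Hb, hb1, hb2, hb3, hb4⟩ := ih _ hlt (Γ ⧸ P) (G.map q) (A.map q) (U.map q) rfl hsolv'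
      hcop' m' n hcard' (hc.coprime_dvd_left hm'm) hUG'
      (hUn.coprime_dvd_left (card_map_dvd _ _)) hAU'
    obtain ⟨hLG, hAL, hUL⟩ := pull Hb hb1 hb3 hb4
    exact ⟨Hb.comap q, hLG, by rw [card_comap_mk', hb2, hm'], hAL, hUL⟩

theorem inv_hall_ge {X : Type u} [Group X] [Finite X] (A G U : Subgroup X)
    (hAG : A ≤ normalizer (G : Set X)) (hcop : (Nat.card A).Coprime (Nat.card G))
    (hsolv : Group.IsSolvable G) (m n : ℕ) (hmn : Nat.card G = m * n) (hc : m.Coprime n)
    (hUG : U ≤ G) (hUn : (Nat.card U).Coprime n) (hAU : A ≤ normalizer (U : Set X)) :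
    ∃ H : Subgroup X, H ≤ G ∧ Nat.card H = m ∧ A ≤ normalizer (H : Set X) ∧ U ≤ H := by
  set Nm := normalizer (G : Set X) with hNm
  have hGN : G ≤ Nm := le_normalizer
  haveI : (G.subgroupOf Nm).Normal := normal_in_normalizer
  obtain ⟨H', h1, h2, h3, h4⟩ := inv_hall_ge_aux _ Nm (G.subgroupOf Nm) (A.subgroupOf Nm)
    (U.subgroupOf Nm) rfl
    (isSolvable_subgroupOf_of_le hGN hsolv)
    (by rw [card_subgroupOf_of_le hGN, card_subgroupOf_of_le hAG]; exact hcop) m n
    (by rw [card_subgroupOf_of_le hGN]; exact hmn) hc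
    (fun x hx => hUG hx)
    (by rw [card_subgroupOf_of_le (hUG.trans hGN)]; exact hUn)
    (by
      rw [le_normalizer_iff]
      intro a ha x hx
      exact (le_normalizer_iff.mp hAU) a ha x hx)
  refine ⟨H'.map Nm.subtype, ?_, by rw [card_map_subtype, h2], ?_, ?_⟩
  · rintro _ ⟨x, hx, rfl⟩; exact h1 hx
  · rw [le_normalizer_iff]
    rintro a ha _ ⟨x, hx, rfl⟩
    exact ⟨⟨a, hAG ha⟩ * x * ⟨a, hAG ha⟩⁻¹, (le_normalizer_iff.mp h3) ⟨a, hAG ha⟩ ha x hx, rfl⟩
  · intro u hu
    exact ⟨⟨u, hGN (hUG hu)⟩, h4 hu, rfl⟩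

theorem pi_split (π : Set ℕ) : ∀ N : ℕ, N ≠ 0 → ∃ m n : ℕ, N = m * n ∧ m.Coprime n ∧
    (∀ p : ℕ, p.Prime → p ∣ m → p ∈ π) ∧ (∀ p : ℕ, p.Prime → p ∈ π → ¬ p ∣ n) := by
  intro N
  induction N using Nat.strong_induction_on with
  | _ N ih =>
  intro hN
  by_cases h1 : N = 1
  · exact ⟨1, 1, by rw [h1], by simp, fun p hp h => absurd (Nat.dvd_one.mp h) hp.ne_one,
      fun p hp _ h => hp.ne_one (Nat.dvd_one.mp h)⟩
  obtain ⟨p, hp, hpN⟩ := Nat.exists_prime_and_dvd h1
  obtain ⟨k, N', hN', rfl⟩ := Nat.exists_eq_pow_mul_and_not_dvd hN p hp.ne_one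
  have hk : k ≠ 0 := by
    rintro rfl
    simp only [pow_zero, one_mul] at hpN
    exact hN' hpN
  have hN'0 : N' ≠ 0 := by rintro rfl; simp at hN
  have hlt : N' < p ^ k * N' := by
    have h2 : 1 < p ^ k := Nat.one_lt_pow hk hp.one_lt
    have h3 : 0 < N' := Nat.pos_of_ne_zero hN'0
    nlinarith
  obtain ⟨m, n, rfl, hc, h2, h3⟩ := ih N' hlt hN'0
  have hpm : ¬ p ∣ m := fun h => hN' (h.mul_right n)
  have hpn : ¬ p ∣ n := fun h => hN' (h.mul_left m)
  by_cases hπ : p ∈ π
  · refine ⟨p ^ k * m, n, by ring, ?_, ?_, h3⟩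
    · exact Nat.Coprime.mul_left
        (Nat.Coprime.pow_left k ((Nat.Prime.coprime_iff_not_dvd hp).mpr hpn)) hc
    · intro r hr hrd
      rcases (Nat.Prime.dvd_mul hr).mp hrd with h | h
      · have := (Nat.prime_dvd_prime_iff_eq hr hp).mp (hr.dvd_of_dvd_pow h)
        rw [this]; exact hπ
      · exact h2 r hr h
  · refine ⟨m, p ^ k * n, by ring, ?_, h2, ?_⟩
    · exact Nat.Coprime.mul_right
        (Nat.Coprime.pow_right k (Nat.Coprime.symm ((Nat.Prime.coprime_iff_not_dvd hp).mpr hpm))) hc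
    · intro r hr hrπ hrd
      rcases (Nat.Prime.dvd_mul hr).mp hrd with h | h
      · have := (Nat.prime_dvd_prime_iff_eq hr hp).mp (hr.dvd_of_dvd_pow h)
        rw [this] at hrπ; exact hπ hrπ
      · exact h3 r hr hrπ h

theorem hall_card_iff {X : Type*} [Group X] [Finite X] (π : Set ℕ) (H G : Subgroup X) (m n : ℕ)
    (hmn : Nat.card G = m * n) (hc : m.Coprime n) (hm : ∀ p : ℕ, p.Prime → p ∣ m → p ∈ π)
    (hn : ∀ p : ℕ, p.Prime → p ∈ π → ¬ p ∣ n) (hHG : H ≤ G) :
    ((∀ p : ℕ, p.Prime → p ∣ Nat.card H → p ∈ π) ∧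
      ∀ p : ℕ, p.Prime → p ∈ π → ¬ p ∣ H.relIndex G) ↔ Nat.card H = m := by
  have e := card_mul_relIndex_of_le hHG
  rw [hmn] at e
  constructor
  · rintro ⟨h1, h2⟩
    have c1 : (Nat.card H).Coprime n :=
      Nat.coprime_of_dvd fun k hk hkH hkn => hn k hk (h1 k hk hkH) hkn
    have c2 : m.Coprime (H.relIndex G) :=
      Nat.coprime_of_dvd fun k hk hkm hkr => h2 k hk (hm k hk hkm) hkr
    exact Nat.dvd_antisymm (c1.dvd_of_dvd_mul_right (Dvd.intro _ e))
      (c2.dvd_of_dvd_mul_right ⟨n, e⟩)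
  · intro hcard
    rw [hcard] at e
    have hm0 : 0 < m := by rw [← hcard]; exact Nat.card_pos
    have h3 : H.relIndex G = n := Nat.eq_of_mul_eq_mul_left hm0 e
    exact ⟨by rw [hcard]; exact hm, by rw [h3]; exact hn⟩

end Cfsg.Agent.Lib.Helper1
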