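import Mathlib
import Cfsg.Agent.Lib.Helper1.TISylA
import Cfsg.Agent.Lib.Helper1.TISylC

/-! Ito's theorem on `p`-solvable linear groups of degree `≤ p - 1`: the character part. -/

set_option autoImplicit false
set_option linter.style.haveILetI false

namespace Cfsg.Agent.Lib.Helper1

open Cfsg Cfsg.Agent.Lib.Helper25
open scoped ComplexConjugate

universe u

variable {Γ : Type u} [Group Γ]

theorem ito_shift [Finite Γ] (K : Subgroup Γ) [hK : K.Normal] (C : Subgroup Γ) [Fintype C]
    {p : ℕ} (hp : p.Prime) (hcop : (Nat.card K).Coprime p) {Ξ : Γ → ℂ}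
    (hΞ : IsIrrCharacter Γ Ξ) (hres : IsIrrCharacter K (fun g : K => Ξ g))
    (t : Γ) {a : ℕ} (ht : orderOf t = p ^ a) (hC : C = fixSub K t) :
    ∃ β : C → ℂ, IsIrrCharacter C β ∧
      (∃ M : ℕ, classInner (fun c : C => Ξ c) β = M ∧
        ((M : ℤ) ≡ 1 [ZMOD p] ∨ (M : ℤ) ≡ -1 [ZMOD p])) ∧
      (∀ ξ : C → ℂ, IsIrrCharacter C ξ → ∀ M : ℕ, classInner (fun c : C => Ξ c) ξ = M →
        ξ ≠ β → p ∣ M) ∧
      Ξ t * conj (Ξ t) = β 1 * conj (β 1) := by
  classical
  have hct : ∀ c ∈ C, c * t = t * c := fun c hc => (mem_fixSub.1 (hC ▸ hc)).2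
  have hcopa : (Nat.card K).Coprime (p ^ a) := Nat.Coprime.pow_right a hcop
  have hΞc := Helper7.isCharacter_of_irr hΞ
  obtain ⟨β, hβ, ⟨M, hM, hpM⟩, huq, hv⟩ := ti_shift K C hp hcop hΞ hres t ht hC
  obtain ⟨-, -, h3⟩ := glaub_analysis C t hct hp ht hΞc (by
      intro k hk
      have hk' : k.Coprime (orderOf t) := by rw [ht]; exact hk
      exact (classInner_shift K (t ^ k) C (hC.trans (fixSub_pow K t hk').symm)
        (Nat.Coprime.coprime_dvd_right (orderOf_pow_dvd k) (by rw [ht]; exact hcopa))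
        hΞ hΞ hres hres).1)
  refine ⟨β, hβ, ⟨M, hM, ?_⟩, ?_, hv⟩
  · refine (h3 β hβ M hM).2 ?_
    intro h0
    exact hpM ((h3 β hβ M hM).1 h0)
  · intro ξ hξ M' hM' hne
    by_contra hnd
    exact hne (huq ξ hξ M' hM' hnd)

theorem ito_orbit [Finite Γ] (K : Subgroup Γ) [hK : K.Normal] [Fintype K] {χ : Γ → ℂ}
    (hχ : IsCharacter Γ χ) (d : ℕ) (hd : χ 1 = d) (θ : IrrCharacter K)
    (hθ : classInner (fun k : K => χ k) (θ : K → ℂ) ≠ 0)
    {ι : Type*} [Fintype ι] (w : ι → Γ)
    (hinj : ∀ i j, (θ : K → ℂ) ∘ conjAut K (w i) (fun g hg => hK.conj_mem g hg _) =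
      (θ : K → ℂ) ∘ conjAut K (w j) (fun g hg => hK.conj_mem g hg _) → i = j) :
    Fintype.card ι ≤ d := by
  classical
  have : Finite (IrrCharacter K) := Helper2.finite_irrCharacter
  let _ : Fintype (IrrCharacter K) := Fintype.ofFinite _
  let η : ι → IrrCharacter K := fun i =>
    ⟨(θ : K → ℂ) ∘ conjAut K (w i) (fun g hg => hK.conj_mem g hg _),
      isIrrCharacter_comp_equiv _ θ.2⟩
  have hηinj : Function.Injective η := fun i j h => hinj i j (congrArg Subtype.val h)
  have hχK := Helper7.isCharacter_restrict hχ K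
  obtain ⟨m, hm, hsum⟩ := Helper7.character_eq_sum_nat hχK
  have hcl := Helper7.isClassFunction_of_isCharacter hχ
  have hminv : ∀ i, m (η i) = m θ := by
    intro i
    have h0 : (fun k : K => χ k) ∘ conjAut K (w i) (fun g hg => hK.conj_mem g hg _) =
        (fun k : K => χ k) := by
      ext k
      show χ (conjAut K (w i) _ k : K) = χ k
      rw [conjAut_apply]
      exact hcl _ _
    have h3 := classInner_comp_equiv (conjAut K (w i) (fun g hg => hK.conj_mem g hg _))
      (fun k : K => χ k) (θ : K → ℂ)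
    rw [h0] at h3
    have h4 : classInner (fun k : K => χ k) ((η i : IrrCharacter K) : K → ℂ) =
        classInner (fun k : K => χ k) (θ : K → ℂ) := h3
    rw [hm, hm] at h4
    exact_mod_cast h4
  have hmθ : 0 < m θ := by
    rw [hm] at hθ
    exact Nat.pos_of_ne_zero (by exact_mod_cast hθ)
  choose e he0 he using fun η : IrrCharacter K => Helper7.irr_apply_one η.2
  have hdsum : d = ∑ η : IrrCharacter K, m η * e η := by
    have h1 := congrFun hsum 1
    simp only [Finset.sum_apply, Pi.smul_apply, he, Subgroup.coe_one, hd] at h1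
    simp only [nsmul_eq_mul] at h1
    exact_mod_cast h1
  rw [hdsum, ← Finset.card_univ,
    ← Finset.card_image_of_injective Finset.univ hηinj, Finset.card_eq_sum_ones]
  refine le_trans (Finset.sum_le_sum ?_) (Finset.sum_le_sum_of_subset (Finset.subset_univ _))
  intro ζ hζ
  obtain ⟨i, -, rfl⟩ := Finset.mem_image.1 hζ
  have h1 : 0 < m (η i) := by rw [hminv]; exact hmθ
  exact Nat.mul_pos h1 (he0 _)

/-- a constituent of a character of degree `< p` is invariant under `p`-elements. -/
theorem ito_invariant [Finite Γ] (K : Subgroup Γ) [hK : K.Normal] [Fintype K] {χ : Γ → ℂ}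
    (hχ : IsCharacter Γ χ) (d : ℕ) (hd : χ 1 = d) (θ : IrrCharacter K)
    (hθ : classInner (fun k : K => χ k) (θ : K → ℂ) ≠ 0) {p : ℕ} (hp : p.Prime) (hdp : d < p)
    (t : Γ) {a : ℕ} (ht : t ^ p ^ a = 1) : t ∈ stabSub K (θ : K → ℂ) := by
  by_contra hns
  have hs : ∀ x : Γ, ∀ g ∈ K, x * g * x⁻¹ ∈ K := fun x g hg => hK.conj_mem g hg x
  have h1 := ito_orbit K hχ d hd θ hθ (ι := Fin p) (fun i => t ^ (i : ℕ)) (by
    intro i j hij
    by_contra hne
    apply hns
    -- wlog on the order
    have key : ∀ i j : ℕ, i < j → j < p →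
        (θ : K → ℂ) ∘ conjAut K (t ^ i) (hs _) = (θ : K → ℂ) ∘ conjAut K (t ^ j) (hs _) →
        t ∈ stabSub K (θ : K → ℂ) := by
      intro i j hij hjp h
      have h2 : t ^ (j - i) ∈ stabSub K (θ : K → ℂ) := by
        rw [mem_stabSub_iff K _ (hs _)]
        ext k
        have hk' : (t ^ i)⁻¹ * (k : Γ) * (t ^ i) ∈ K := by
          have := hs (t ^ i)⁻¹ k k.2
          rwa [inv_inv] at this
        have h3 := congrFun h ⟨_, hk'⟩
        have e1 : conjAut K (t ^ i) (hs _) ⟨_, hk'⟩ = k := by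
          apply Subtype.ext
          rw [conjAut_apply]
          group
        have e2 : conjAut K (t ^ j) (hs _) ⟨_, hk'⟩ = conjAut K (t ^ (j - i)) (hs _) k := by
          apply Subtype.ext
          rw [conjAut_apply, conjAut_apply]
          have hj : t ^ j = t ^ (j - i) * t ^ i := by rw [← pow_add]; congr 1; omega
          rw [hj]
          group
        simp only [Function.comp_apply] at h3 ⊢
        rw [e1, e2] at h3
        exact h3.symm
      have hcop : Nat.Coprime (j - i) (p ^ a) := by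
        apply Nat.Coprime.pow_right
        apply Nat.Coprime.symm
        rw [Nat.Prime.coprime_iff_not_dvd hp]
        intro hd
        have := Nat.le_of_dvd (by omega) hd
        omega
      exact ti_mem_of_pow _ hcop h2 (by rw [ht]; exact Subgroup.one_mem _)
    rcases lt_or_gt_of_ne (fun h => hne (Fin.ext h) : (i : ℕ) ≠ j) with h | h
    · exact key i j h j.2 hij
    · exact key j i h i.2 hij.symm)
  rw [Fintype.card_fin] at h1
  omega

end Cfsg.Agent.Lib.Helper1
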