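import Mathlib
import Cfsg.Agent.Lib.Helper1.ItoA

/-! Ito's theorem on `p`-solvable linear groups of degree `≤ p - 1`: the core. -/

set_option autoImplicit false
set_option linter.style.haveILetI false

namespace Cfsg.Agent.Lib.Helper1

open Cfsg Cfsg.Agent.Lib.Helper25
open scoped ComplexConjugate

universe u

theorem ito_core {X : Type u} [Group X] [Finite X] (R : Subgroup X) [hR : R.Normal] {p : ℕ}
    (hp : p.Prime) (t : X) {a : ℕ} (ht : orderOf t = p ^ a)
    (hRT : R ⊔ Subgroup.zpowers t = ⊤) (hcop : (Nat.card R).Coprime p)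
    {χ : X → ℂ} (hχ : IsCharacter X χ) (hfaith : ∀ k ∈ R, χ k = χ 1 → k = 1)
    (n : ℕ) (hn : χ 1 = n) (hnp : n + 1 ≤ p) (hnc : ∃ k ∈ R, t * k ≠ k * t) :
    n + 1 = p ∧ n ∣ Nat.card R ∧ IsIrrCharacter R (fun k : R => χ k) := by
  classical
  cases nonempty_fintype X
  have : Finite (IrrCharacter R) := Helper2.finite_irrCharacter
  let _ : Fintype (IrrCharacter R) := Fintype.ofFinite _
  have hnorm : ∀ s ∈ Subgroup.zpowers t, ∀ g ∈ R, s * g * s⁻¹ ∈ R :=
    fun m _ n hn => hR.conj_mem n hn m
  have hcardT : Nat.card (Subgroup.zpowers t) = p ^ a := by rw [Nat.card_zpowers, ht]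
  have hcop' : (Nat.card R).Coprime (Nat.card (Subgroup.zpowers t)) := by
    rw [hcardT]; exact Nat.Coprime.pow_right a hcop
  have htp : t ^ p ^ a = 1 := by rw [← ht]; exact pow_orderOf_eq_one t
  have hχR := Helper7.isCharacter_restrict hχ R
  obtain ⟨m, hm, hsum⟩ := Helper7.character_eq_sum_nat hχR
  choose e he0 he using fun η : IrrCharacter R => Helper7.irr_apply_one η.2
  have hdsum : n = ∑ η : IrrCharacter R, m η * e η := by
    have h1 := congrFun hsum 1
    simp only [Finset.sum_apply, Pi.smul_apply, he, Subgroup.coe_one, hn] at h1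
    simp only [nsmul_eq_mul] at h1
    exact_mod_cast h1
  obtain ⟨π, hπK, hπH⟩ := exists_retract R (Subgroup.zpowers t) hRT hcop'
  have hle : ∀ θ : IrrCharacter R, m θ ≠ 0 → m θ * e θ ≤ n := by
    intro θ _
    rw [hdsum]
    exact Finset.single_le_sum (f := fun η => m η * e η)
      (fun _ _ => Nat.zero_le _) (Finset.mem_univ θ)
  -- dichotomy for each constituent
  have hdich : ∀ θ : IrrCharacter R, m θ ≠ 0 →
      (∀ k : R, ∀ c : R, (c : X) = t * k * t⁻¹ * (k : X)⁻¹ → (θ : R → ℂ) c = (θ : R → ℂ) 1) ∨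
      (e θ = n ∧ n + 1 = p) := by
    intro θ hmθ
    have hle' : e θ ≤ n := le_trans (Nat.le_mul_of_pos_left _ (Nat.pos_of_ne_zero hmθ)) (hle θ hmθ)
    have hst : t ∈ stabSub R (θ : R → ℂ) :=
      ito_invariant R hχ n hn θ (by rw [hm]; exact_mod_cast hmθ) hp (by omega) t htp
    have hinv : InvUnder R (Subgroup.zpowers t) (θ : R → ℂ) :=
      invUnder_of_le_stabSub (by rw [Subgroup.zpowers_le]; exact hst)
    obtain ⟨Ξ, hΞ, hΞK⟩ := exists_ext_of_invUnder R (Subgroup.zpowers t) π hπK hπH hcop' θ.2 hinv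
    have hΞc := Helper7.isCharacter_of_irr hΞ
    have hres : IsIrrCharacter R (fun g : R => Ξ g) := by
      have : (fun g : R => Ξ g) = (θ : R → ℂ) := funext hΞK
      rw [this]; exact θ.2
    have hΞ1 : Ξ 1 = e θ := by
      have := hΞK 1
      rw [Subgroup.coe_one] at this
      rw [this, he]
    obtain ⟨β, hβ, ⟨M, hM, hMpm⟩, hoth, hv⟩ :=
      ito_shift R (fixSub R t) hp hcop hΞ hres t ht rfl
    obtain ⟨b, hb0, hb⟩ := Helper7.irr_apply_one hβ
    have : Finite (IrrCharacter (fixSub R t)) := Helper2.finite_irrCharacter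
    let _ : Fintype (IrrCharacter (fixSub R t)) := Fintype.ofFinite _
    obtain ⟨mm, hmm, hsumC⟩ := Helper7.character_eq_sum_nat
      (Helper7.isCharacter_restrict hΞc (fixSub R t))
    choose f hf0 hf using fun η : IrrCharacter (fixSub R t) => Helper7.irr_apply_one η.2
    have hesum : e θ = ∑ η : IrrCharacter (fixSub R t), mm η * f η := by
      have h1 := congrFun hsumC 1
      simp only [Finset.sum_apply, Pi.smul_apply, hf, Subgroup.coe_one, hΞ1] at h1
      simp only [nsmul_eq_mul] at h1
      exact_mod_cast h1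
    have hmmβ : mm ⟨β, hβ⟩ = M := by
      have h0 : classInner (fun c : fixSub R t => Ξ c) β = (mm ⟨β, hβ⟩ : ℂ) := hmm ⟨β, hβ⟩
      rw [hM] at h0
      exact_mod_cast h0.symm
    have hfβ : f ⟨β, hβ⟩ = b := by
      have h0 : β 1 = (f ⟨β, hβ⟩ : ℂ) := hf ⟨β, hβ⟩
      rw [hb] at h0
      exact_mod_cast h0.symm
    have hzero : ∀ η : IrrCharacter (fixSub R t), η ≠ ⟨β, hβ⟩ → mm η = 0 := by
      intro η hη
      by_contra h0
      have h1 : p ∣ mm η := hoth η η.2 (mm η) (hmm η) (fun h => hη (Subtype.ext h))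
      have h2 : p ≤ mm η := Nat.le_of_dvd (Nat.pos_of_ne_zero h0) h1
      have h3 : mm η * f η ≤ e θ := by
        rw [hesum]
        exact Finset.single_le_sum (f := fun η => mm η * f η)
          (fun _ _ => Nat.zero_le _) (Finset.mem_univ η)
      have h4 : mm η ≤ mm η * f η := Nat.le_mul_of_pos_right _ (hf0 η)
      omega
    have heq : e θ = M * b := by
      rw [hesum, Finset.sum_eq_single (⟨β, hβ⟩ : IrrCharacter (fixSub R t)), hmmβ, hfβ]
      · intro η _ hη
        rw [hzero η hη, zero_mul]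
      · intro h; exact absurd (Finset.mem_univ _) h
    have hMle : M ≤ e θ := by rw [heq]; exact Nat.le_mul_of_pos_right _ hb0
    have hMlt : M < p := by omega
    rcases hMpm with h1 | h1
    · -- M = 1
      left
      have hM1 : M = 1 := by
        have h2 := Int.emod_emod_of_dvd (M : ℤ) (dvd_refl (p : ℤ))
        have h3 : (M : ℤ) % p = 1 % p := h1
        rw [Int.emod_eq_of_lt (by positivity) (by exact_mod_cast hMlt),
          Int.emod_eq_of_lt (by norm_num) (by exact_mod_cast hp.one_lt)] at h3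
        exact_mod_cast h3
      have heb : e θ = b := by rw [heq, hM1, one_mul]
      have h2 : Ξ t * conj (Ξ t) = ((e θ : ℕ) : ℂ) ^ 2 := by
        rw [hv, hb, heb]; simp [sq]
      intro k c hc
      have h3 := ti_comm_ker hΞc (e θ) hΞ1 h2 k
      rw [← hΞK, ← hΞK, hc, h3, Subgroup.coe_one]
    · right
      have hM1 : M + 1 = p := by
        have h3 : (p : ℤ) ∣ (M : ℤ) + 1 := by
          have := (Int.modEq_iff_dvd.1 h1.symm)
          simpa using this
        have h4 : p ∣ M + 1 := by exact_mod_cast h3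
        have h5 := Nat.le_of_dvd (by omega) h4
        omega
      have h6 : M ≤ M * b := Nat.le_mul_of_pos_right _ hb0
      constructor <;> omega
  by_cases hall : ∀ θ : IrrCharacter R, m θ ≠ 0 →
      (∀ k : R, ∀ c : R, (c : X) = t * k * t⁻¹ * (k : X)⁻¹ → (θ : R → ℂ) c = (θ : R → ℂ) 1)
  · exfalso
    obtain ⟨k, hk, hne⟩ := hnc
    have hc : t * k * t⁻¹ * k⁻¹ ∈ R := R.mul_mem (hR.conj_mem k hk t) (R.inv_mem hk)
    have h1 : χ (t * k * t⁻¹ * k⁻¹) = χ 1 := by
      have h2 := congrFun hsum ⟨_, hc⟩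
      have h3 := congrFun hsum 1
      simp only [Finset.sum_apply, Pi.smul_apply, Subgroup.coe_one] at h2 h3
      rw [h2, h3]
      apply Finset.sum_congr rfl
      intro θ _
      by_cases hmθ : m θ = 0
      · rw [hmθ]; simp
      · rw [hall θ hmθ ⟨k, hk⟩ ⟨_, hc⟩ rfl]
    have h2 := hfaith _ hc h1
    apply hne
    have : t * k = (t * k * t⁻¹ * k⁻¹) * (k * t) := by group
    rw [this, h2, one_mul]
  · push Not at hall
    obtain ⟨θ, hmθ, hθ⟩ := hall
    rcases hdich θ hmθ with h | ⟨h1, h2⟩
    · exfalso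
      obtain ⟨k, c, hc, hne⟩ := hθ
      exact hne (h k c hc)
    · have hn0 : 0 < n := by rw [← h1]; exact he0 θ
      have hm1 : m θ = 1 := by
        have h3 := hle θ hmθ
        rw [h1] at h3
        have h4 : m θ ≤ 1 := by
          by_contra h5
          have : 2 * n ≤ m θ * n := Nat.mul_le_mul_right n (by omega)
          omega
        omega
      have hz : ∀ η : IrrCharacter R, η ≠ θ → m η = 0 := by
        intro η hη
        by_contra h0
        have h3 : m θ * e θ + m η * e η ≤ n := by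
          rw [hdsum]
          have := Finset.add_le_sum (f := fun η => m η * e η) (s := Finset.univ)
            (fun _ _ => Nat.zero_le _) (Finset.mem_univ θ) (Finset.mem_univ η) hη.symm
          exact this
        have h4 : 0 < m η * e η := Nat.mul_pos (Nat.pos_of_ne_zero h0) (he0 η)
        rw [hm1, h1] at h3
        omega
      have hχθ : (fun k : R => χ k) = (θ : R → ℂ) := by
        rw [hsum, Finset.sum_eq_single θ, hm1, one_smul]
        · intro η _ hη
          rw [hz η hη, zero_smul]
        · intro h; exact absurd (Finset.mem_univ _) h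
      refine ⟨h2, ?_, ?_⟩
      · have := Helper7.charDegree_dvd_card θ
        rwa [charDegree_eq (he θ), h1] at this
      · rw [hχθ]; exact θ.2

end Cfsg.Agent.Lib.Helper1
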