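import Mathlib
import Cfsg.Agent.Lib.Helper1.TISylA
import Cfsg.Agent.Lib.Helper1.CoprimeSylow
import Cfsg.Agent.Lib.Helper5.PSolv

/-! Ito's theorem on `p`-solvable linear groups of degree `≤ p - 1`: group theory. -/

set_option autoImplicit false
set_option linter.style.haveILetI false

namespace Cfsg.Agent.Lib.Helper1

open Cfsg
open scoped Pointwise

variable {G : Type*} [Group G]

theorem ito_normal_of_centralizes [Finite G] {p : ℕ} [hp : Fact p.Prime]
    (hsolv : IsPSolvable p G) (P : Sylow p G)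
    (hab : ∀ x ∈ (P : Subgroup G), ∀ y ∈ (P : Subgroup G), x * y = y * x)
    (hcent : ∀ u ∈ (P : Subgroup G), ∀ k ∈ pPrimeCore p G, u * k = k * u) :
    (P : Subgroup G).Normal := by
  set K := pPrimeCore p G with hK
  have hf : Function.Surjective (QuotientGroup.mk' K) := QuotientGroup.mk'_surjective K
  have hsol' : IsPSolvable p (G ⧸ K) := Helper5.isPSolvable_of_surjective _ hf hsolv
  have hO : pPrimeCore p (G ⧸ K) = ⊥ := Helper5.pPrimeCore_quot_pPrimeCore
  have hHH := Helper5.centralizer_pCore_le hsol' hO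
  have hle : pCore p (G ⧸ K) ≤ ((P.mapSurjective hf : Sylow p (G ⧸ K)) : Subgroup (G ⧸ K)) :=
    Helper5.pCore_le_sylow _
  rw [Sylow.coe_mapSurjective] at hle
  have hPle : (P : Subgroup G).map (QuotientGroup.mk' K) ≤ pCore p (G ⧸ K) := by
    refine le_trans ?_ hHH
    rintro _ ⟨u, hu, rfl⟩
    rw [Subgroup.mem_centralizer_iff]
    intro y hy
    obtain ⟨v, hv, rfl⟩ := hle hy
    rw [← map_mul, ← map_mul, hab v hv u hu]
  have hKcop : (Nat.card K).Coprime p := Helper5.pPrimeCore_coprime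
  constructor
  intro u hu g
  have h1 : QuotientGroup.mk' K (g * u * g⁻¹) ∈ (P : Subgroup G).map (QuotientGroup.mk' K) := by
    apply hle
    have hn : (pCore p (G ⧸ K)).Normal := inferInstance
    have := hn.conj_mem _ (hPle (Subgroup.mem_map_of_mem _ hu)) (QuotientGroup.mk' K g)
    rwa [← map_inv, ← map_mul, ← map_mul] at this
  obtain ⟨v, hv, hvy⟩ := h1
  set y := g * u * g⁻¹ with hy
  have h2 : v⁻¹ * y ∈ K := by
    rw [← QuotientGroup.eq_one_iff, ← QuotientGroup.mk'_apply, map_mul, map_inv, hvy,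
      inv_mul_cancel]
  set k := v⁻¹ * y with hk
  have hyk : y = v * k := by rw [hk]; group
  have hcomm : Commute v k := hcent v hv k h2
  have h3 : y ^ Nat.card K ∈ (P : Subgroup G) := by
    rw [hyk, hcomm.mul_pow]
    have h4 : k ^ Nat.card K = 1 := by
      have := pow_card_eq_one' (G := K) (x := ⟨k, h2⟩)
      exact congrArg Subtype.val this
    rw [h4, mul_one]
    exact Subgroup.pow_mem _ hv _
  obtain ⟨a, ha⟩ := P.isPGroup' ⟨u, hu⟩
  have hua : u ^ p ^ a = 1 := congrArg Subtype.val ha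
  exact ti_mem_of_pow (P : Subgroup G) (Nat.Coprime.pow_right a hKcop) h3
    (by rw [hy, conj_pow, hua]; simp)

theorem ito_exists_rgroup [Finite G] {p : ℕ} (K : Subgroup G) [hKn : K.Normal]
    (hK : (Nat.card K).Coprime p) (t : G) {a : ℕ} (ht : orderOf t = p ^ a)
    (hnc : ∃ k ∈ K, t * k ≠ k * t) :
    ∃ (r : ℕ) (R : Subgroup G), r.Prime ∧ IsPGroup r R ∧ R ≤ K ∧
      Subgroup.zpowers t ≤ Subgroup.normalizer (R : Set G) ∧ ∃ k ∈ R, t * k ≠ k * t := by
  set D : Subgroup K := (Subgroup.centralizer ({t} : Set G)).subgroupOf K with hD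
  have hDtop : D ≠ ⊤ := by
    intro h
    obtain ⟨k, hk, hne⟩ := hnc
    have h1 : (⟨k, hk⟩ : K) ∈ D := by rw [h]; trivial
    rw [hD, Subgroup.mem_subgroupOf, Subgroup.mem_centralizer_iff] at h1
    exact hne (h1 t rfl)
  have hidx : D.index ≠ 1 := fun h => hDtop (Subgroup.index_eq_one.1 h)
  obtain ⟨r, hr, hrd⟩ := Nat.exists_prime_and_dvd hidx
  haveI : Fact r.Prime := ⟨hr⟩
  have hAK : Subgroup.zpowers t ≤ Subgroup.normalizer (K : Set G) := by
    rw [Subgroup.normalizer_eq_top_iff.2 hKn]; exact le_top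
  have hcop : (Nat.card (Subgroup.zpowers t)).Coprime (Nat.card K) := by
    rw [Nat.card_zpowers, ht]; exact (Nat.Coprime.pow_right a hK).symm
  obtain ⟨⟨R₀, hR₀⟩, -⟩ := invariant_sylow (Subgroup.zpowers t) K hAK hcop
    (Or.inl inferInstance) r
  refine ⟨r, (R₀ : Subgroup K).map K.subtype, hr, ?_, ?_, hR₀, ?_⟩
  · exact R₀.isPGroup'.map _
  · rintro _ ⟨x, -, rfl⟩; exact x.2
  · by_contra hcon
    push Not at hcon
    have hle : (R₀ : Subgroup K) ≤ D := by
      intro x hx
      rw [hD, Subgroup.mem_subgroupOf, Subgroup.mem_centralizer_iff]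
      intro y hy
      rw [Set.mem_singleton_iff.1 hy]
      exact hcon x (Subgroup.mem_map_of_mem _ hx)
    have h1 : D.index ∣ (R₀ : Subgroup K).index := Subgroup.index_dvd_of_le hle
    exact R₀.not_dvd_index (hrd.trans h1)

end Cfsg.Agent.Lib.Helper1
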