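import Mathlib
import Cfsg.Prelude
import Cfsg.Agent.Lib.Helper1.KleinOrder
import Cfsg.Agent.Lib.Helper25.FrobSchur2
import Cfsg.Agent.Lib.Helper25.FrobSchur3
import Cfsg.Agent.S0925

set_option autoImplicit false
set_option linter.unusedSimpArgs false

namespace Cfsg.Agent.Lib.Helper1

open Subgroup Cfsg
open scoped ComplexConjugate
open Cfsg.Agent.Lib.Helper24 Cfsg.Agent.Lib.Helper7 Cfsg.Agent.Lib.Helper25

universe u
variable {G : Type u} [Group G] [Finite G]

omit [Finite G] in
theorem centralizer_singleton_inv (g : G) :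
    centralizer ({g⁻¹} : Set G) = centralizer ({g} : Set G) := by
  ext x
  simp only [mem_centralizer_singleton_iff]
  exact (Commute.inv_right_iff (a := x) (b := g))

theorem conjIrr_mem_principalBlock {M : Ideal AlgInt} (χ : IrrCharacter G)
    (h : χ ∈ principalBlock M G) : conjIrr χ ∈ principalBlock M G := by
  intro g
  have h1 := h g⁻¹
  have hc := Helper7.isCharacter_of_irr χ.2
  have h2 : centralChar (fun _ : G => (1 : ℂ)) g = centralChar (fun _ : G => (1 : ℂ)) g⁻¹ := by
    simp only [centralChar, centralizer_singleton_inv]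
  have h3 : centralChar (conjIrr χ : G → ℂ) g = centralChar (χ : G → ℂ) g⁻¹ := by
    simp only [centralChar, centralizer_singleton_inv, conjIrr_apply]
    rw [Cfsg.Agent.Lib.Helper2.IsCharacter.conj_eq_inv hc, Cfsg.Agent.Lib.Helper2.IsCharacter.conj_eq_inv hc, inv_one]
  rw [h2, h3]
  exact h1

theorem klein_not_four_dvd (hK : KleinHyp G) (v : G) : ¬ 4 ∣ orderOf v := by
  rintro ⟨m, hm⟩
  have hpos : 0 < orderOf v := orderOf_pos v
  have hm0 : m ≠ 0 := by
    rintro rfl
    omega
  have h1 : orderOf (v ^ m) = 4 := by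
    rw [orderOf_pow, hm, Nat.gcd_eq_right (Dvd.intro_left 4 rfl)]
    exact Nat.mul_div_cancel _ (Nat.pos_of_ne_zero hm0)
  have h2 := (hK.two_elt (z := v ^ m) ⟨2, by rw [h1]; norm_num⟩ (by
    intro h
    rw [h, orderOf_one] at h1
    omega)).1
  omega

theorem klein_odd_sq (hK : KleinHyp G) (v : G) : ¬ 2 ∣ orderOf (v * v) := by
  have h4 := klein_not_four_dvd hK v
  rw [← pow_two, orderOf_pow]
  have hpos : 0 < orderOf v := orderOf_pos v
  intro h
  by_cases h2 : 2 ∣ orderOf v
  · rw [Nat.gcd_eq_right h2] at h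
    obtain ⟨a, ha⟩ := h2
    rw [ha, Nat.mul_div_cancel_left _ (by norm_num)] at h
    obtain ⟨b, hb⟩ := h
    exact h4 ⟨b, by rw [ha, hb]; ring⟩
  · have : Nat.gcd (orderOf v) 2 = 1 := by
      rw [Nat.gcd_comm]
      exact (Nat.Prime.coprime_iff_not_dvd Nat.prime_two).mpr h2
    rw [this, Nat.div_one] at h
    exact h2 h

theorem classInner_sqrt [Fintype G] [DecidableEq G] (χ : IrrCharacter G) :
    classInner (fun g : G => (((Finset.univ.filter (fun u : G => u * u = g)).card : ℕ) : ℂ))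
      (χ : G → ℂ) = fsInd (χ : G → ℂ) := by
  rw [← conj_fsInd χ.2, fsInd, classInner, map_mul, map_inv₀, Complex.conj_natCast, map_sum]
  congr 1
  simp only [Finset.card_filter, Nat.cast_sum, Finset.sum_mul]
  rw [Finset.sum_comm]
  refine Finset.sum_congr rfl (fun u _ => ?_)
  rw [Finset.sum_eq_single (u * u)]
  · simp
  · intro b _ hb
    simp [Ne.symm hb]
  · simp

theorem isClassFunction_sqrt [Fintype G] [DecidableEq G] : IsClassFunction G
      (fun g : G => (((Finset.univ.filter (fun u : G => u * u = g)).card : ℕ) : ℂ)) := by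
  intro g h
  show (((Finset.univ.filter (fun u : G => u * u = h * g * h⁻¹)).card : ℕ) : ℂ) = _
  congr 1
  apply Finset.card_bij (fun u _ => h⁻¹ * u * h)
  · intro u hu
    simp only [Finset.mem_filter, Finset.mem_univ, true_and] at hu ⊢
    calc h⁻¹ * u * h * (h⁻¹ * u * h) = h⁻¹ * (u * u) * h := by group
      _ = g := by rw [hu]; group
  · intro a _ b _ hab
    simpa using hab
  · intro b hb
    simp only [Finset.mem_filter, Finset.mem_univ, true_and] at hb
    refine ⟨h * b * h⁻¹, ?_, by group⟩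
    simp only [Finset.mem_filter, Finset.mem_univ, true_and]
    rw [← hb]; group

/-- The Frobenius-Schur sum over the principal block vanishes at an involution. -/
theorem klein_fs_sum [Fintype G] [Fintype (IrrCharacter G)] {M : Ideal AlgInt} (hK : KleinHyp G)
    (hM : IsPModular 2 M) (J : G) (hJ2 : orderOf J = 2) [DecidablePred (· ∈ principalBlock M G)] :
    ∑ χ ∈ Finset.univ.filter (· ∈ principalBlock M G), fsInd (χ : G → ℂ) * (χ : G → ℂ) J = 0 := by
  classical
  haveI : Fact (Nat.Prime 2) := ⟨Nat.prime_two⟩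
  have h1 := (Cfsg.Agent.S0925.result (G := G) 2 M hM).1
    (fun g : G => (((Finset.univ.filter (fun u : G => u * u = g)).card : ℕ) : ℂ))
    isClassFunction_sqrt J ⟨1, by rw [hJ2]; norm_num⟩ ?_ (principalBlock M G)
    isPBlock_principalBlock J J ⟨1, by simp, Commute.one_right J, ⟨1, by rw [hJ2]; norm_num⟩, by simp⟩
    (IsConj.refl J)
  · rw [blockPart] at h1
    rw [finsum_mem_eq_finite_toFinset_sum _ (Set.toFinite _)] at h1
    rw [← h1]
    apply Finset.sum_congr
    · ext χ; simp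
    · intro χ _
      congr 1
      rw [← classInner_sqrt χ]
      congr!
  · intro w z hw hz
    have h2 : 2 ∣ orderOf w := by
      by_contra hw2
      have h3 : z = 1 := isPPart_unique Nat.prime_two hw (isPPart_one_iff.mpr hw2)
      rw [h3] at hz
      have : J = 1 := isConj_one_left.mp hz
      rw [this, orderOf_one] at hJ2
      omega
    have : (Finset.univ.filter (fun u : G => u * u = w)) = ∅ := by
      rw [Finset.filter_eq_empty_iff]
      intro v _ hv
      exact klein_odd_sq hK v (hv ▸ h2)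
    rw [this]; simp

theorem klein_arith (g cJ cP x q idx k s : ℕ) (hcP : 0 < cP) (hk : 0 < k)
    (hq : q = 2 * x + 1) (hs : x + 1 = 2 * s)
    (hg : g = idx * cJ) (hcJ : cJ = k * cP)
    (hmain : g * (x + 1) ^ 2 * cP ^ 2 = 4 * x * q * cJ ^ 3) :
    ∃ m : ℕ, 4 * cJ = m * cP * (q + 1) ∧ 8 * g = m ^ 3 * cP * (q ^ 3 - q) := by
  subst hg hcJ
  rw [hs] at hmain
  have h1 : idx * s ^ 2 = x * q * k ^ 2 := by
    have h0 : 0 < 4 * k * cP ^ 3 := by positivity
    apply Nat.eq_of_mul_eq_mul_left h0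
    linarith [hmain]
  have hs0 : 0 < s := by omega
  have hq1 : q + 1 = 4 * s := by omega
  have hsx : Nat.Coprime s x := by
    have hd1 : Nat.gcd s x ∣ x := Nat.gcd_dvd_right _ _
    have hd2 : Nat.gcd s x ∣ x + 1 := hs ▸ Dvd.dvd.mul_left (Nat.gcd_dvd_left s x) 2
    exact Nat.dvd_one.mp ((Nat.dvd_add_right hd1).mp hd2)
  have hsq : Nat.Coprime s q := by
    have hd1 : Nat.gcd s q ∣ q := Nat.gcd_dvd_right _ _
    have hd2 : Nat.gcd s q ∣ q + 1 := hq1 ▸ Dvd.dvd.mul_left (Nat.gcd_dvd_left s q) 4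
    exact Nat.dvd_one.mp ((Nat.dvd_add_right hd1).mp hd2)
  have hdv : s ^ 2 ∣ (x * q) * k ^ 2 := ⟨idx, by linarith⟩
  have hdv2 : s ^ 2 ∣ k ^ 2 :=
    Nat.Coprime.dvd_of_dvd_mul_left (Nat.Coprime.pow_left 2 (Nat.Coprime.mul_right hsx hsq)) hdv
  obtain ⟨m, rfl⟩ := (Nat.pow_dvd_pow_iff two_ne_zero).mp hdv2
  have h2 : idx = x * q * m ^ 2 := by
    have h0 : 0 < s ^ 2 := by positivity
    apply Nat.eq_of_mul_eq_mul_left h0
    linarith [h1]
  refine ⟨m, ?_, ?_⟩
  · rw [hq1]; ring
  · have hq3 : q ^ 3 - q = 8 * x * q * s := by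
      apply Nat.sub_eq_of_eq_add
      have : 8 * x * q * s = 4 * x * q * (2 * s) := by ring
      rw [this, ← hs, hq]; ring
    rw [hq3, h2]; ring

end Cfsg.Agent.Lib.Helper1
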