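import Cfsg.Agent.Lib.Helper1.QuotRank
import Cfsg.Agent.Lib.Helper24.BlockTransport
import Cfsg.Agent.Lib.Helper24.BlockPNilp
import Cfsg.Agent.Lib.Helper7.BlockSecondMain
import Cfsg.Agent.Lib.Helper7.BlockKer
import Cfsg.Agent.S4511

set_option autoImplicit false
set_option linter.unusedSectionVars false

namespace Cfsg.Agent.Lib.Helper1

open Cfsg Cfsg.Agent.Lib.Helper7 Cfsg.Agent.Lib.Helper24
open scoped ComplexConjugate

universe u v

/-- the rank of the principal block is invariant under isomorphism -/
theorem blockRank_principal_congr {K : Type u} {K' : Type v} [Group K] [Group K'] [Finite K]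
    {p : ℕ} {M : Ideal AlgInt} (hM : IsPModular p M) (σ : K ≃* K') :
    blockRank p (principalBlock M K) = blockRank p (principalBlock M K') := by
  classical
  haveI : Finite K' := Finite.of_equiv K σ.toEquiv
  haveI := Fintype.ofFinite K
  haveI := Fintype.ofFinite K'
  haveI := Fintype.ofFinite (IrrCharacter K)
  haveI := Fintype.ofFinite (IrrCharacter K')
  have key : (blockRank p (principalBlock M K) : ℂ) = blockRank p (principalBlock M K') := by
    rw [blockRank_principal_eq_sum hM, blockRank_principal_eq_sum hM, Nat.card_congr σ.toEquiv]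
    congr 1
    apply Fintype.sum_equiv σ.toEquiv
    intro k
    have h1 : regInd p K k = regInd p K' (σ k) := by
      by_cases hk : p ∣ orderOf k
      · rw [regInd_of_singular hk, regInd_of_singular (by rwa [MulEquiv.orderOf_eq])]
      · rw [regInd_of_regular hk, regInd_of_regular (by rwa [MulEquiv.orderOf_eq])]
    show _ = regInd p K' (σ k) * _
    rw [h1]
    congr 1
    symm
    apply Fintype.sum_equiv (mapIrrEquiv σ)
    intro χ
    show _ = (principalBlock M K).indicator _ (mapIrr σ χ)
    by_cases hχ : χ ∈ principalBlock M K'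
    · rw [Set.indicator_of_mem hχ, Set.indicator_of_mem ((mapIrr_mem_principalBlock_iff σ χ).2 hχ)]
      rfl
    · rw [Set.indicator_of_notMem hχ,
        Set.indicator_of_notMem (fun h => hχ ((mapIrr_mem_principalBlock_iff σ χ).1 h))]
  exact_mod_cast key

variable {G : Type u} [Group G] [Finite G] {p : ℕ} {M : Ideal AlgInt}

theorem blockRank_principal_of_eq_top (hM : IsPModular p M) (H : Subgroup G) (h : H = ⊤) :
    blockRank p (principalBlock M H) = blockRank p (principalBlock M G) :=
  blockRank_principal_congr hM ((MulEquiv.subgroupCongr h).trans Subgroup.topEquiv)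

/-- a group with a normal `p`-complement has `l(B₀) = 1` -/
theorem blockRank_principal_eq_one (hM : IsPModular p M) (N : Subgroup G) [N.Normal]
    (hNc : (Nat.card N).Coprime p) {k : ℕ} (hidx : N.index = p ^ k) :
    blockRank p (principalBlock M G) = 1 := by
  classical
  haveI := Fintype.ofFinite G
  haveI := hM.2.1.isPrime
  have hp : p.Prime := hM.1
  obtain ⟨v, hv⟩ : ∃ v : G → ℂ, v = pRegularPart p (fun _ : G => (1 : ℂ)) := ⟨_, rfl⟩
  have hreg1 : IsPRegular p (1 : G) := by
    show ¬ p ∣ orderOf (1 : G)
    rw [orderOf_one]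
    exact hp.one_lt.ne' ∘ Nat.dvd_one.1
  have hpr : ∀ (χ : G → ℂ) (g : G), IsPRegular p g → pRegularPart p χ g = χ g := by
    intro χ g hg
    simp [pRegularPart, hg]
  have hps : ∀ (χ : G → ℂ) (g : G), ¬ IsPRegular p g → pRegularPart p χ g = 0 := by
    intro χ g hg
    simp [pRegularPart, hg]
  have hv1 : v 1 = 1 := by rw [hv, hpr _ _ hreg1]
  have hv0 : v ≠ 0 := fun h => by rw [h] at hv1; simp at hv1
  have hvmem : v ∈ (fun χ : IrrCharacter G => pRegularPart p (χ : G → ℂ)) '' principalBlock M G :=
    ⟨oneIrr G, oneIrr_mem_principalBlock, hv.symm⟩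
  have hχ : ∀ χ ∈ principalBlock M G,
      pRegularPart p (χ : G → ℂ) = ((χ : G → ℂ) 1) • v := by
    intro χ hχ
    funext g
    by_cases hg : IsPRegular p g
    · rw [hpr _ _ hg, Pi.smul_apply, hv, hpr _ _ hg, smul_eq_mul, mul_one]
      exact (mem_principalBlock_iff_of_index hM N hNc hidx χ).1 hχ g
        ((regular_iff_mem_of_index hp N hNc hidx g).1 hg)
    · rw [hps _ _ hg, Pi.smul_apply, hv, hps _ _ hg, smul_zero]
  have hspan : Submodule.span ℂ
      ((fun χ : IrrCharacter G => pRegularPart p (χ : G → ℂ)) '' principalBlock M G)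
      = Submodule.span ℂ {v} := by
    apply le_antisymm
    · rw [Submodule.span_le]
      rintro _ ⟨χ, hχB, rfl⟩
      show pRegularPart p (χ : G → ℂ) ∈ Submodule.span ℂ {v}
      rw [hχ χ hχB]
      exact Submodule.smul_mem _ _ (Submodule.mem_span_singleton_self v)
    · rw [Submodule.span_le, Set.singleton_subset_iff]
      exact Submodule.subset_span hvmem
  rw [blockRank, hspan, finrank_span_singleton hv0]

/-- the only block of `C_G(x)` inducing the principal block is the principal block -/
theorem induced_principal_set (hM : IsPModular p M) {x : G} (hx : ∃ k : ℕ, orderOf x = p ^ k) :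
    {b : Set (IrrCharacter ↥(Subgroup.centralizer ({x} : Set G))) |
      IsInducedBlock M (Subgroup.centralizer ({x} : Set G)) b (principalBlock M G)}
      = {principalBlock M ↥(Subgroup.centralizer ({x} : Set G))} := by
  classical
  haveI := Fintype.ofFinite G
  haveI := Fintype.ofFinite ↥(Subgroup.centralizer ({x} : Set G))
  haveI := hM.2.1.isPrime
  ext b
  rw [Set.mem_setOf_eq, Set.mem_singleton_iff]
  constructor
  · intro h
    exact (Helper24.third_main hM _ h).1 rfl
  · rintro rfl
    obtain ⟨B, hB⟩ := inducedBlockDefined_centralizer hM hx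
      (isPBlock_principalBlock (M := M) (G := ↥(Subgroup.centralizer ({x} : Set G))))
    have := (Helper24.third_main hM _ hB).2 rfl
    rwa [this] at hB

/-- `k(B₀(G)) = ∑ₓ l(B₀(C_G(x)))`, over representatives of the classes of `p`-elements -/
theorem card_principalBlock_eq_sum (hM : IsPModular p M) (X : Finset G)
    (hX : ∀ x ∈ X, ∃ k : ℕ, orderOf x = p ^ k)
    (hXrep : ∀ g : G, (∃ k : ℕ, orderOf g = p ^ k) → ∃! x, x ∈ X ∧ IsConj g x) :
    Nat.card (principalBlock M G)
      = ∑ x ∈ X, blockRank p (principalBlock M ↥(Subgroup.centralizer ({x} : Set G))) := by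
  haveI := hM.2.1.isPrime
  rw [Cfsg.Agent.S4511.result p M hM _ isPBlock_principalBlock X hX hXrep]
  apply Finset.sum_congr rfl
  intro x hx
  rw [induced_principal_set hM (hX x hx), finsum_mem_singleton]

end Cfsg.Agent.Lib.Helper1
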