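import Cfsg.Agent.Lib.Helper1.PrincipalCount
import Cfsg.Agent.Lib.Helper1.Q8
import Cfsg.Agent.Lib.Lead.ZS11
import Cfsg.Agent.Lib.Lead.Q8Loc
import Cfsg.Agent.Lib.Helper14.SylowConj
import Cfsg.Agent.S0201
import Cfsg.Agent.S4512

set_option autoImplicit false
set_option linter.unusedSectionVars false

namespace Cfsg.Agent.Lib.Helper1

open Cfsg Cfsg.Agent.Lib.Helper7 Cfsg.Agent.Lib.Helper24

universe u
variable {G : Type u} [Group G]

theorem orderOf_eq_of_isConj {a b : G} (h : IsConj a b) : orderOf a = orderOf b := by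
  obtain ⟨c, rfl⟩ := isConj_iff.1 h
  have := (MulAut.conj c).orderOf_eq a
  rw [MulAut.conj_apply] at this
  exact this.symm

theorem exists_conj_mem_sylow_of_orderOf [Finite G] {p : ℕ} [Fact p.Prime] (P : Sylow p G) (g : G)
    {k : ℕ} (hg : orderOf g = p ^ k) : ∃ s ∈ P, IsConj g s := by
  obtain ⟨c, hc⟩ := Helper14.exists_conj_mem_sylow P (Subgroup.zpowers g)
    (IsPGroup.of_card (n := k) (by rw [Nat.card_zpowers, hg]))
  exact ⟨c * g * c⁻¹, hc g (Subgroup.mem_zpowers g), isConj_iff.2 ⟨c, rfl⟩⟩

variable [Finite G]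

theorem q8_principal_card (M : Ideal AlgInt) (hM : IsPModular 2 M) (S : Sylow 2 G)
    (e : (S : Subgroup G) ≃* QuaternionGroup 2)
    (hO : ∀ N : Subgroup G, N.Normal → Odd (Nat.card N) → N = ⊥) (hG : (S : Subgroup G) ≠ ⊤) :
    Nat.card (principalBlock M G) = 7 := by
  classical
  haveI : Fact (Nat.Prime 2) := ⟨Nat.prime_two⟩
  have hS8 : Nat.card (S : Subgroup G) = 8 := by
    rw [Nat.card_congr e.toEquiv, Nat.card_eq_fintype_card, QuaternionGroup.card]
  have hnc : ∀ N : Subgroup G, N.Normal → ¬ Subgroup.IsComplement' N (S : Subgroup G) := by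
    intro N hN hc
    have h1 : Odd (Nat.card N) := by
      rw [← hc.index_eq_card, ← Nat.not_even_iff_odd, even_iff_two_dvd]
      exact S.not_dvd_index
    rw [hO N hN h1, Subgroup.isComplement'_bot_left] at hc
    exact hG hc
  obtain ⟨z, hzS, ⟨hz2, -⟩, hzconj, hzuniq⟩ := Lead.quat_zstar S 0 e
  -- `z` is central
  have hzc : z ∈ Subgroup.center G := by
    have h2 := Cfsg.Agent.S0201.result S 0 e hO
    obtain ⟨c, hc⟩ := exists_prime_orderOf_dvd_card' (G := Subgroup.center G) 2 (by rw [h2])
    have hc2 : orderOf (c : G) = 2 := by rw [Subgroup.orderOf_coe, hc]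
    obtain ⟨d, hd⟩ := isConj_iff.1 (hzconj _ hc2).symm
    have h3 : d * (c : G) * d⁻¹ = c := by
      rw [(Subgroup.mem_center_iff.1 c.2 d), mul_inv_cancel_right]
    rw [← hd, h3]
    exact c.2
  -- an element of order four
  obtain ⟨t, htS, ht4⟩ : ∃ t ∈ S, orderOf t = 4 := by
    refine ⟨(e.symm (QuaternionGroup.a 1) : (S : Subgroup G)), (e.symm _).2, ?_⟩
    rw [Subgroup.orderOf_coe, MulEquiv.orderOf_eq, QuaternionGroup.orderOf_a_one]
  have hfus : ∀ s ∈ S, s ≠ 1 → s ≠ z → IsConj t s := by
    intro s hs h1 hz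
    exact q8_fusion S e hnc t s htS ht4 hs h1 (fun h => hz (hzuniq s hs h))
  have hz1 : z ≠ 1 := by
    rintro rfl
    rw [orderOf_one] at hz2
    omega
  have ht1 : t ≠ 1 := by
    rintro rfl
    rw [orderOf_one] at ht4
    omega
  have htz : t ≠ z := by
    rintro rfl
    omega
  -- the count
  have hcount := card_principalBlock_eq_sum hM ({1, z, t} : Finset G)
    (by
      intro x hx
      simp only [Finset.mem_insert, Finset.mem_singleton] at hx
      rcases hx with rfl | rfl | rfl
      · exact ⟨0, by simp⟩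
      · exact ⟨1, by simpa using hz2⟩
      · exact ⟨2, by simpa using ht4⟩)
    (by
      rintro g ⟨k, hk⟩
      obtain ⟨s, hs, hgs⟩ := exists_conj_mem_sylow_of_orderOf S g hk
      have hex : ∃ x ∈ ({1, z, t} : Finset G), IsConj g x := by
        by_cases h1 : s = 1
        · exact ⟨1, by simp, h1 ▸ hgs⟩
        · by_cases h2 : s = z
          · exact ⟨z, by simp, h2 ▸ hgs⟩
          · exact ⟨t, by simp, hgs.trans (hfus s hs h1 h2).symm⟩
      obtain ⟨x, hx, hgx⟩ := hex
      refine ⟨x, ⟨hx, hgx⟩, ?_⟩
      rintro y ⟨hy, hgy⟩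
      have ho : orderOf y = orderOf x := by
        rw [← orderOf_eq_of_isConj hgx, ← orderOf_eq_of_isConj hgy]
      simp only [Finset.mem_insert, Finset.mem_singleton] at hx hy
      rcases hx with rfl | rfl | rfl <;> rcases hy with rfl | rfl | rfl <;>
        first
        | rfl
        | (exfalso; simp only [orderOf_one, hz2, ht4] at ho; omega))
  rw [hcount, Finset.sum_insert (by simp [hz1.symm, ht1.symm]),
    Finset.sum_insert (by simp [htz.symm]), Finset.sum_singleton]
  -- the quotient by `⟨z⟩`
  have hQle : (Subgroup.zpowers z : Set G) ⊆ Subgroup.center G := by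
    intro y hy
    exact (Subgroup.zpowers_le.2 hzc) hy
  haveI hQn : (Subgroup.zpowers z).Normal := by
    constructor
    intro y hy g
    have : g * y * g⁻¹ = y := by
      rw [(Subgroup.mem_center_iff.1 (hQle hy) g), mul_inv_cancel_right]
    rwa [this]
  have hQc : Nat.card (Subgroup.zpowers z) = 2 := by rw [Nat.card_zpowers, hz2]
  have hQp : IsPGroup 2 (Subgroup.zpowers z) := IsPGroup.of_card (n := 1) (by rw [hQc, pow_one])
  have hsup : Subgroup.zpowers z ⊔ Subgroup.centralizer (Subgroup.zpowers z : Set G) = ⊤ := by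
    rw [Subgroup.centralizer_eq_top_iff_subset.2 hQle, sup_top_eq]
  have hmemQ : ∀ y : G, y ∈ Subgroup.zpowers z ↔ y = 1 ∨ y = z := by
    intro y
    constructor
    · intro hy
      obtain ⟨k, rfl⟩ := Subgroup.mem_zpowers_iff.1 hy
      rcases Int.even_or_odd' k with ⟨m, rfl | rfl⟩
      · left
        rw [zpow_mul, zpow_ofNat, ← hz2, pow_orderOf_eq_one, one_zpow]
      · right
        rw [zpow_add, zpow_mul, zpow_ofNat, ← hz2, pow_orderOf_eq_one, one_zpow, one_mul, zpow_one]
    · rintro (rfl | rfl)
      · exact one_mem _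
      · exact Subgroup.mem_zpowers _
  have hrankG : blockRank 2 (principalBlock M G) = 3 := by
    rw [blockRank_principal_quotient hM (Subgroup.zpowers z) hQp hsup]
    have hsurj := QuotientGroup.mk'_surjective (Subgroup.zpowers z)
    have hPmem : ∀ x : G ⧸ Subgroup.zpowers z, x ∈ S.mapSurjective hsurj →
        ∃ s ∈ S, QuotientGroup.mk' (Subgroup.zpowers z) s = x := by
      intro x hx
      have hx' : x ∈ (S : Subgroup G).map (QuotientGroup.mk' (Subgroup.zpowers z)) := hx
      obtain ⟨s, hs, rfl⟩ := Subgroup.mem_map.1 hx'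
      exact ⟨s, hs, rfl⟩
    apply Cfsg.Agent.S4512.result M hM (S.mapSurjective hsurj)
    · have h1 := S.card_eq_multiplicity
      have h2 := (S.mapSurjective hsurj).card_eq_multiplicity
      have h3 := Subgroup.card_eq_card_quotient_mul_card_subgroup (Subgroup.zpowers z)
      rw [hQc] at h3
      have h4 : (Nat.card G).factorization 2 = 3 := by
        have : (2 : ℕ) ^ (Nat.card G).factorization 2 = 2 ^ 3 := by rw [← h1]; exact hS8
        exact Nat.pow_right_injective (le_refl 2) this
      have h5 : (Nat.card (G ⧸ Subgroup.zpowers z)).factorization 2 + 1 = 3 := by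
        rw [← h4, h3, Nat.factorization_mul Nat.card_pos.ne' (by norm_num)]
        simp [Nat.Prime.factorization_self Nat.prime_two]
      have h6 : (Nat.card (G ⧸ Subgroup.zpowers z)).factorization 2 = 2 := by omega
      rw [h6] at h2
      exact h2
    · rintro ⟨x, hx⟩
      obtain ⟨s, hs, rfl⟩ := hPmem x hx
      apply Subtype.ext
      show QuotientGroup.mk' (Subgroup.zpowers z) s * QuotientGroup.mk' (Subgroup.zpowers z) s = 1
      rw [← map_mul]
      apply (QuotientGroup.eq_one_iff _).2
      rw [hmemQ, ← pow_two]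
      by_cases h1 : s ^ 2 = 1
      · exact Or.inl h1
      · right
        apply hzuniq _ (Subgroup.pow_mem _ hs 2)
        apply orderOf_eq_prime _ h1
        rw [← pow_mul]
        exact q8s_pow4 e hs
    · have key : ∀ a : G ⧸ Subgroup.zpowers z, orderOf a = 2 →
          IsConj (QuotientGroup.mk' (Subgroup.zpowers z) t) a := by
        intro a ha
        obtain ⟨x, hx, hax⟩ := exists_conj_mem_sylow_of_orderOf (S.mapSurjective hsurj) a (k := 1)
          (by rw [ha, pow_one])
        obtain ⟨s, hs, rfl⟩ := hPmem x hx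
        have hs2 : orderOf (QuotientGroup.mk' (Subgroup.zpowers z) s) = 2 := by
          rw [← orderOf_eq_of_isConj hax, ha]
        have hsQ : s ∉ Subgroup.zpowers z := by
          intro h
          have h1 : QuotientGroup.mk' (Subgroup.zpowers z) s = 1 := (QuotientGroup.eq_one_iff _).2 h
          rw [h1, orderOf_one] at hs2
          omega
        rw [hmemQ] at hsQ
        push Not at hsQ
        exact ((QuotientGroup.mk' (Subgroup.zpowers z)).map_isConj
          (hfus s hs hsQ.1 hsQ.2)).trans hax.symm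
      intro a b ha hb
      exact (key a ha).symm.trans (key b hb)
  have hr1 : blockRank 2 (principalBlock M ↥(Subgroup.centralizer ({1} : Set G))) = 3 := by
    rw [blockRank_principal_of_eq_top hM _ (Subgroup.centralizer_eq_top_iff_subset.2
      (by simp)), hrankG]
  have hr2 : blockRank 2 (principalBlock M ↥(Subgroup.centralizer ({z} : Set G))) = 3 := by
    rw [blockRank_principal_of_eq_top hM _ (Subgroup.centralizer_eq_top_iff_subset.2
      (by simpa using hzc)), hrankG]
  have hr3 : blockRank 2 (principalBlock M ↥(Subgroup.centralizer ({t} : Set G))) = 1 := by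
    obtain ⟨⟨k, hk⟩, -⟩ := Lead.q8_centralizer S e t htS ht4
    haveI := (SC.pPrimeCore_mem (G := ↥(Subgroup.centralizer ({t} : Set G))) 2).1
    exact blockRank_principal_eq_one hM _
      (SC.pPrimeCore_mem (G := ↥(Subgroup.centralizer ({t} : Set G))) 2).2 hk
  omega

end Cfsg.Agent.Lib.Helper1
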